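import Mathlib

/-!
# The double cover of the alternating groups, by monomial gamma matrices
-/

set_option autoImplicit false

open scoped commutatorElement

namespace Cfsg.Agent.AltSpin

variable {n : ℕ}

/-- index set -/
abbrev Idx (n : ℕ) := Fin n → Bool

/-- square matrices on the spin space -/
abbrev Mat (n : ℕ) := Matrix (Idx n) (Idx n) ℝ

/-- a monomial matrix -/
def mono (p : Idx n → Idx n) (w : Idx n → ℝ) : Mat n := fun x y => if y = p x then w x else 0

theorem mono_mul (p q : Idx n → Idx n) (w v : Idx n → ℝ) :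
    mono p w * mono q v = mono (q ∘ p) (fun x => w x * v (p x)) := by
  ext x z
  rw [Matrix.mul_apply, Finset.sum_eq_single (p x)]
  · simp [mono]
  · intro y _ hy; simp [mono, hy]
  · simp

theorem mono_neg (p : Idx n → Idx n) (w : Idx n → ℝ) : -mono p w = mono p (fun x => -w x) := by
  ext x y; by_cases h : y = p x <;> simp [mono, h]

theorem mono_one : mono (n := n) id (fun _ => 1) = 1 := by
  ext x y; by_cases h : x = y
  · subst h; simp [mono]
  · simp [mono, h, Ne.symm h]

theorem mono_transpose (p : Idx n → Idx n) (hp : Function.Involutive p) (w : Idx n → ℝ) :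
    (mono p w).transpose = mono p (w ∘ p) := by
  ext x y
  by_cases h : y = p x
  · subst h; simp [mono, hp x]
  · have : x ≠ p y := fun e => h (by rw [e, hp y])
    simp [mono, h, this]

/-- flipping one coordinate -/
def flip (i : Fin n) (x : Idx n) : Idx n := Function.update x i (!x i)

theorem flip_flip (i : Fin n) : Function.Involutive (flip i) := fun x => by
  funext j; by_cases h : j = i
  · subst h; simp [flip]
  · simp [flip, h]

theorem flip_comm (i j : Fin n) : flip i ∘ flip j = flip j ∘ flip i := by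
  funext x k
  by_cases h : i = j
  · subst h; rfl
  · by_cases hk : k = i
    · subst hk; simp [flip, h]
    · by_cases hk' : k = j
      · subst hk'; simp [flip, Ne.symm h]
      · simp [flip, hk, hk']

/-- the sign of a bit -/
def ε (b : Bool) : ℝ := if b then -1 else 1

theorem ε_not (b : Bool) : ε (!b) = -ε b := by cases b <;> simp [ε]

theorem ε_sq (b : Bool) : ε b * ε b = 1 := by cases b <;> simp [ε]

/-- the string of signs below `i` -/
def str (i : Fin n) (x : Idx n) : ℝ := ∏ j ∈ Finset.univ.filter (· < i), ε (x j)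

theorem str_sq (i : Fin n) (x : Idx n) : str i x * str i x = 1 := by
  rw [str, ← Finset.prod_mul_distrib]; exact Finset.prod_eq_one fun j _ => ε_sq _

theorem str_flip_of_le {i j : Fin n} (h : i ≤ j) (x : Idx n) : str i (flip j x) = str i x := by
  refine Finset.prod_congr rfl fun k hk => ?_
  have : k < i := (Finset.mem_filter.mp hk).2
  rw [flip, Function.update_of_ne (ne_of_lt (lt_of_lt_of_le this h))]

theorem str_flip_of_gt {i j : Fin n} (h : j < i) (x : Idx n) : str i (flip j x) = -str i x := by
  have hj : j ∈ Finset.univ.filter (· < i) := Finset.mem_filter.mpr ⟨Finset.mem_univ _, h⟩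
  rw [str, str, ← Finset.mul_prod_erase _ _ hj, ← Finset.mul_prod_erase _ _ hj,
    Finset.prod_congr rfl (fun k hk => ?_)]
  · rw [show flip j x j = !x j by simp [flip], ε_not, neg_mul]
  · rw [flip, Function.update_of_ne (Finset.mem_erase.mp hk).1]

/-- the gamma matrices -/
def γ (i : Fin n) : Mat n := mono (flip i) (str i)

/-- the companion matrices -/
def δ (i : Fin n) : Mat n := mono (flip i) (fun x => str i x * ε (x i))

theorem γ_sq (i : Fin n) : γ i * γ i = 1 := by
  rw [γ, mono_mul, ← mono_one, (flip_flip i).comp_self]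
  congr 1; funext x; rw [str_flip_of_le le_rfl, str_sq]

theorem γ_transpose (i : Fin n) : (γ i).transpose = γ i := by
  rw [γ, mono_transpose _ (flip_flip i)]
  congr 1; funext x; exact str_flip_of_le le_rfl x

theorem γ_anti {i j : Fin n} (h : i ≠ j) : γ i * γ j = -(γ j * γ i) := by
  rw [γ, γ, mono_mul, mono_mul, mono_neg, flip_comm j i]
  congr 1; funext x
  rcases lt_or_gt_of_ne h with h | h
  · rw [str_flip_of_gt h, str_flip_of_le h.le]; ring
  · rw [str_flip_of_le h.le, str_flip_of_gt h]; ring

theorem δ_anti (i j : Fin n) : δ i * γ j = -(γ j * δ i) := by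
  rw [δ, γ, mono_mul, mono_mul, mono_neg, flip_comm j i]
  congr 1; funext x
  rcases lt_trichotomy i j with h | h | h
  · rw [str_flip_of_gt h, str_flip_of_le h.le, show flip j x i = x i by rw [flip, Function.update_of_ne h.ne]]; ring
  · subst h; rw [str_flip_of_le le_rfl, show flip i x i = !x i by simp [flip], ε_not]; ring
  · rw [str_flip_of_le h.le, str_flip_of_gt h, show flip j x i = x i by rw [flip, Function.update_of_ne h.ne']]; ring

theorem γ_injective : Function.Injective (γ : Fin n → Mat n) := by
  intro i j h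
  by_contra hne
  have h2 := congrFun (congrFun h (fun _ => false)) (flip i (fun _ => false))
  have hfl : flip i (fun _ => false) ≠ flip j (fun _ => false) := fun e => by
    have := congrFun e i
    simp [flip, hne] at this
  simp only [γ, mono, if_true, hfl, if_false] at h2
  have := str_sq i (fun _ => false)
  rw [h2] at this
  simp at this

/-- commuting with every gamma and every companion means scalar -/
theorem eq_scalar (g : Mat n) (hγ : ∀ i, g * γ i = γ i * g) (hδ : ∀ i, g * δ i = δ i * g) :
    ∃ c : ℝ, g = c • 1 := by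
  have hdiag : ∀ x y, x ≠ y → g x y = 0 := by
    intro x y hxy
    obtain ⟨i, hi⟩ := Function.ne_iff.mp hxy
    have h : g * (γ i * δ i) = (γ i * δ i) * g := by rw [← mul_assoc, hγ, mul_assoc, hδ, ← mul_assoc]
    rw [γ, δ, mono_mul, (flip_flip i).comp_self] at h
    have h2 := congrFun (congrFun h x) y
    rw [Matrix.mul_apply, Finset.sum_eq_single y (fun z _ hz => by simp [mono, Ne.symm hz]) (by simp),
      Matrix.mul_apply, Finset.sum_eq_single x (fun z _ hz => by simp [mono, hz]) (by simp)] at h2
    simp only [mono, id, if_true] at h2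
    have key : ∀ z : Idx n, str i z * (str i (flip i z) * ε (flip i z i)) = -ε (z i) := fun z => by
      rw [str_flip_of_le le_rfl, show flip i z i = !z i by simp [flip], ε_not, ← mul_assoc, str_sq, one_mul]
    rw [key, key] at h2
    cases hxi : x i <;> cases hyi : y i <;> simp [hxi, hyi, ε] at hi h2 ⊢ <;> linarith
  have hstep : ∀ i x, g (flip i x) (flip i x) = g x x := by
    intro i x
    have h2 := congrFun (congrFun (hγ i) x) (flip i x)
    rw [Matrix.mul_apply, Matrix.mul_apply,
      Finset.sum_eq_single x (fun z _ hz => by simp [hdiag x z (Ne.symm hz)]) (by simp),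
      Finset.sum_eq_single (flip i x) (fun z _ hz => by simp [γ, mono, hz]) (by simp)] at h2
    simp only [γ, mono, if_true] at h2
    have hne : str i x ≠ 0 := fun h0 => by have := str_sq i x; simp [h0] at this
    exact (mul_left_cancel₀ hne (by rw [← h2, mul_comm])).symm
  have hconst : ∀ (s : Finset (Fin n)) (x : Idx n), (∀ j ∉ s, x j = false) → g x x = g (fun _ => false) (fun _ => false) := by
    intro s
    induction s using Finset.induction_on with
    | empty => intro x hx; rw [show x = fun _ => false from funext fun j => hx j (Finset.notMem_empty j)]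
    | insert a s _ ih =>
      intro x hx
      cases hxa : x a
      · exact ih x fun j hj => by
          by_cases hja : j = a
          · subst hja; exact hxa
          · exact hx j (by simp [hja, hj])
      · rw [← hstep a x]
        exact ih _ fun j hj => by
          by_cases hja : j = a
          · subst hja; simp [flip, hxa]
          · rw [flip, Function.update_of_ne hja]; exact hx j (by simp [hja, hj])
  refine ⟨g (fun _ => false) (fun _ => false), ?_⟩
  ext x y
  by_cases h : x = y
  · subst h; simpa using hconst Finset.univ x (by simp)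
  · simp [h, hdiag x y h]

/-- the spin group over the alternating group -/
def cover (n : ℕ) : Subgroup (Mat n)ˣ where
  carrier := {g | (g : Mat n).transpose * (g : Mat n) = 1 ∧ (∀ i, (g : Mat n) * δ i = δ i * (g : Mat n)) ∧
    ∃ σ : alternatingGroup (Fin n), ∀ i, (g : Mat n) * γ i = γ ((σ : Equiv.Perm (Fin n)) i) * (g : Mat n)}
  one_mem' := ⟨by simp, by simp, 1, by simp⟩
  mul_mem' := by
    rintro g h ⟨g1, g2, σ, hσ⟩ ⟨h1, h2, τ, hτ⟩
    refine ⟨?_, fun i => ?_, σ * τ, fun i => ?_⟩
    · rw [Units.val_mul, Matrix.transpose_mul, mul_assoc, ← mul_assoc _ (g : Mat n), g1, one_mul, h1]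
    · rw [Units.val_mul, mul_assoc, h2, ← mul_assoc, g2, mul_assoc]
    · rw [Units.val_mul, mul_assoc, hτ, ← mul_assoc, hσ, mul_assoc]; rfl
  inv_mem' := by
    rintro g ⟨g1, g2, σ, hσ⟩
    refine ⟨?_, fun i => ?_, σ⁻¹, fun i => ?_⟩
    · have hinv : ((g⁻¹ : (Mat n)ˣ) : Mat n) = (g : Mat n).transpose :=
        (left_inv_eq_right_inv g1 g.mul_inv).symm
      rw [hinv, Matrix.transpose_transpose, ← hinv, g.mul_inv]
    · exact ((Units.mul_right_inj g).mp (by rw [← mul_assoc, Units.mul_inv, one_mul, ← mul_assoc, g2, mul_assoc, Units.mul_inv, mul_one]))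
    · refine (Units.mul_right_inj g).mp ?_
      rw [← mul_assoc, Units.mul_inv, one_mul, ← mul_assoc, hσ, mul_assoc, Units.mul_inv, mul_one]
      simp

/-- the permutation of a spin element -/
noncomputable def perm (g : cover n) : alternatingGroup (Fin n) := g.2.2.2.choose

theorem perm_spec (g : cover n) (i : Fin n) :
    ((g : (Mat n)ˣ) : Mat n) * γ i = γ ((perm g : Equiv.Perm (Fin n)) i) * ((g : (Mat n)ˣ) : Mat n) :=
  g.2.2.2.choose_spec i

theorem perm_unique (g : cover n) (σ : alternatingGroup (Fin n))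
    (h : ∀ i, ((g : (Mat n)ˣ) : Mat n) * γ i = γ ((σ : Equiv.Perm (Fin n)) i) * ((g : (Mat n)ˣ) : Mat n)) :
    perm g = σ :=
  Subtype.ext (Equiv.ext fun i => γ_injective ((Units.mul_left_inj (g : (Mat n)ˣ)).mp ((perm_spec g i).symm.trans (h i))))

/-- the map to the alternating group -/
noncomputable def toAlt : cover n →* alternatingGroup (Fin n) where
  toFun := perm
  map_one' := perm_unique _ _ (by simp)
  map_mul' g h := perm_unique _ _ fun i => by
    show ((g : (Mat n)ˣ) : Mat n) * ((h : (Mat n)ˣ) : Mat n) * γ i = _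
    rw [mul_assoc, perm_spec h i, ← mul_assoc, perm_spec g, mul_assoc]; rfl

/-- the central involution -/
def negOne (n : ℕ) : cover n := ⟨-1, by simp, by simp, 1, by simp⟩

theorem negOne_central (g : cover n) : g * negOne n = negOne n * g := by
  refine Subtype.ext (Units.ext ?_)
  show ((g : (Mat n)ˣ) : Mat n) * (-1) = (-1) * ((g : (Mat n)ˣ) : Mat n)
  simp

theorem negOne_ne : negOne n ≠ 1 := by
  intro h
  have h2 := congrFun (congrFun (congrArg (fun g : cover n => ((g : (Mat n)ˣ) : Mat n)) h) (fun _ => false)) (fun _ => false)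
  simp [negOne] at h2
  linarith

theorem ker_toAlt (g : cover n) (hg : toAlt g = 1) : g = 1 ∨ g = negOne n := by
  obtain ⟨c, hc⟩ := eq_scalar ((g : (Mat n)ˣ) : Mat n) (fun i => by
    rw [perm_spec g i, show perm g = 1 from hg]; rfl) g.2.2.1
  have h2 := congrFun (congrFun g.2.1 (fun _ => false)) (fun _ => false)
  rw [hc] at h2
  simp [Matrix.transpose_smul] at h2
  rcases mul_self_eq_one_iff.mp h2 with rfl | rfl
  · left; exact Subtype.ext (Units.ext (by rw [hc, one_smul]; rfl))
  · right; exact Subtype.ext (Units.ext (by rw [hc, neg_smul, one_smul]; rfl))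

/-- the reflection elements -/
noncomputable def refl (i j : Fin n) : Mat n := (Real.sqrt 2)⁻¹ • (γ i - γ j)

theorem refl_sq {i j : Fin n} (h : i ≠ j) : refl i j * refl i j = 1 := by
  rw [refl, smul_mul_smul_comm, ← mul_inv, Real.mul_self_sqrt (by norm_num : (0:ℝ) ≤ 2)]
  rw [show (γ i - γ j) * (γ i - γ j) = (2 : ℝ) • (1 : Mat n) by
    rw [sub_mul, mul_sub, mul_sub, γ_sq, γ_sq, γ_anti h, two_smul]; abel]
  rw [smul_smul, inv_mul_cancel₀ (by norm_num : (2:ℝ) ≠ 0), one_smul]

theorem refl_transpose (i j : Fin n) : (refl i j).transpose = refl i j := by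
  rw [refl, Matrix.transpose_smul, Matrix.transpose_sub, γ_transpose, γ_transpose]

theorem refl_δ (i j k : Fin n) : refl i j * δ k = -(δ k * refl i j) := by
  rw [refl, smul_mul_assoc, mul_smul_comm, ← smul_neg, sub_mul, mul_sub, δ_anti, δ_anti]
  congr 1; abel

theorem refl_γ {i j : Fin n} (h : i ≠ j) (k : Fin n) :
    refl i j * γ k = -(γ (Equiv.swap i j k) * refl i j) := by
  rw [refl, smul_mul_assoc, mul_smul_comm, ← smul_neg]
  congr 1
  rw [sub_mul, mul_sub]
  by_cases hi : k = i
  · subst hi; rw [Equiv.swap_apply_left, γ_sq, γ_sq]; abel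
  by_cases hj : k = j
  · subst hj; rw [Equiv.swap_apply_right, γ_sq, γ_sq]; abel
  rw [Equiv.swap_apply_of_ne_of_ne hi hj, γ_anti hi, γ_anti hj]; abel

/-- a product of two reflections, with its inverse -/
noncomputable def reflPair {i j k l : Fin n} (h : i ≠ j) (h' : k ≠ l) : (Mat n)ˣ :=
  ⟨refl i j * refl k l, refl k l * refl i j,
    by rw [mul_assoc, ← mul_assoc (refl k l), refl_sq h', one_mul, refl_sq h],
    by rw [mul_assoc, ← mul_assoc (refl i j), refl_sq h, one_mul, refl_sq h']⟩

theorem reflPair_γ {i j k l : Fin n} (h : i ≠ j) (h' : k ≠ l) (m : Fin n) :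
    (reflPair h h' : Mat n) * γ m = γ (Equiv.swap i j (Equiv.swap k l m)) * (reflPair h h' : Mat n) := by
  show refl i j * refl k l * γ m = _
  rw [mul_assoc, refl_γ h', mul_neg, ← mul_assoc, refl_γ h, neg_mul, neg_neg, mul_assoc]; rfl

theorem swap_pair_mem {i j k l : Fin n} (h : i ≠ j) (h' : k ≠ l) :
    Equiv.swap i j * Equiv.swap k l ∈ alternatingGroup (Fin n) := by
  rw [Equiv.Perm.mem_alternatingGroup, map_mul, Equiv.Perm.sign_swap h, Equiv.Perm.sign_swap h']
  decide

theorem reflPair_mem {i j k l : Fin n} (h : i ≠ j) (h' : k ≠ l) : reflPair h h' ∈ cover n := by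
  refine ⟨?_, fun m => ?_, ⟨_, swap_pair_mem h h'⟩, reflPair_γ h h'⟩
  · show (refl i j * refl k l).transpose * (refl i j * refl k l) = 1
    rw [Matrix.transpose_mul, refl_transpose, refl_transpose, mul_assoc, ← mul_assoc (refl i j), refl_sq h, one_mul, refl_sq h']
  · show refl i j * refl k l * δ m = δ m * (refl i j * refl k l)
    rw [mul_assoc, refl_δ, mul_neg, ← mul_assoc, refl_δ, neg_mul, neg_neg, mul_assoc]

theorem toAlt_surjective : Function.Surjective (toAlt (n := n)) := by
  have key : ∀ σ : Equiv.Perm (Fin n), σ.IsThreeCycle → ∃ g : cover n, (toAlt g : Equiv.Perm (Fin n)) = σ := by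
    intro σ hσ
    obtain ⟨a, ha⟩ := Equiv.Perm.IsCycle.nonempty_support hσ.isCycle
    have h1 : σ a ≠ a := Equiv.Perm.mem_support.mp ha
    have h2 : σ (σ a) ≠ σ a := fun e => h1 (σ.injective e)
    have h3 : σ (σ a) ≠ a := fun e => by
      have h := hσ.isCycle.orderOf
      rw [hσ.card_support] at h
      have hp : σ ^ 2 = 1 := Equiv.Perm.IsCycle.pow_eq_one_iff hσ.isCycle |>.mpr ⟨a, h1, by rw [pow_two]; exact e⟩
      have := orderOf_dvd_of_pow_eq_one hp
      rw [h] at this; norm_num at this
    have hσe : σ = Equiv.swap a (σ a) * Equiv.swap (σ a) (σ (σ a)) := by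
      have hsupp : σ.support = {a, σ a, σ (σ a)} := by
        symm
        refine Finset.eq_of_subset_of_card_le ?_ ?_
        · intro x hx
          simp only [Finset.mem_insert, Finset.mem_singleton] at hx
          rcases hx with rfl | rfl | rfl
          · exact ha
          · exact Equiv.Perm.apply_mem_support.mpr ha
          · exact Equiv.Perm.apply_mem_support.mpr (Equiv.Perm.apply_mem_support.mpr ha)
        · rw [hσ.card_support, Finset.card_eq_three.mpr ⟨_, _, _, h1.symm, h3.symm, h2.symm, rfl⟩]
      have h3σ : σ (σ (σ a)) = a := by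
        have h := hσ.isCycle.orderOf
        rw [hσ.card_support] at h
        have := congrArg (fun p : Equiv.Perm (Fin n) => p a) (pow_orderOf_eq_one σ)
        rw [h] at this
        simpa [pow_succ] using this
      refine Equiv.ext fun x => ?_
      by_cases hx : x ∈ σ.support
      · rw [hsupp] at hx
        simp only [Finset.mem_insert, Finset.mem_singleton] at hx
        rcases hx with rfl | rfl | rfl
        · simp [Equiv.swap_apply_of_ne_of_ne h1.symm h3.symm]
        · simp [Equiv.swap_apply_of_ne_of_ne h3 h2]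
        · simp [h3σ, Equiv.swap_apply_right]
      · have hfix := Equiv.Perm.notMem_support.mp hx
        rw [hsupp] at hx
        simp only [Finset.mem_insert, Finset.mem_singleton, not_or] at hx
        rw [hfix, Equiv.Perm.mul_apply, Equiv.swap_apply_of_ne_of_ne hx.2.1 hx.2.2, Equiv.swap_apply_of_ne_of_ne hx.1 hx.2.1]
    refine ⟨⟨_, reflPair_mem h1.symm h2.symm⟩, ?_⟩
    rw [show toAlt (⟨_, reflPair_mem h1.symm h2.symm⟩ : cover n) = ⟨_, swap_pair_mem h1.symm h2.symm⟩ from
      perm_unique _ _ (reflPair_γ h1.symm h2.symm)]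
    exact hσe.symm
  intro σ
  have hle : Subgroup.closure {σ : Equiv.Perm (Fin n) | σ.IsThreeCycle} ≤
      ((alternatingGroup (Fin n)).subtype.comp (toAlt (n := n))).range := by
    rw [Subgroup.closure_le]
    intro τ hτ
    obtain ⟨g, hg⟩ := key τ hτ
    exact ⟨g, hg⟩
  rw [Equiv.Perm.closure_three_cycles_eq_alternating] at hle
  obtain ⟨g, hg⟩ := hle σ.2
  exact ⟨g, Subtype.ext hg⟩

theorem negOne_mem_commutator (hn : 4 ≤ n) : negOne n ∈ commutator (cover n) := by
  obtain ⟨a, b, c, d, hab, hcd, hac, hbd, had, hbc⟩ :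
      ∃ a b c d : Fin n, a ≠ b ∧ c ≠ d ∧ a ≠ c ∧ b ≠ d ∧ a ≠ d ∧ b ≠ c :=
    ⟨⟨0, by omega⟩, ⟨1, by omega⟩, ⟨2, by omega⟩, ⟨3, by omega⟩, by simp [Fin.ext_iff]⟩
  let A : cover n := ⟨_, reflPair_mem hab hcd⟩
  let B : cover n := ⟨_, reflPair_mem hac hbd⟩
  have hM : ∀ p q : Fin n, (A : (Mat n)ˣ).val * refl p q =
      refl (Equiv.swap a b (Equiv.swap c d p)) (Equiv.swap a b (Equiv.swap c d q)) * (A : (Mat n)ˣ).val := by
    intro p q
    show _ * ((Real.sqrt 2)⁻¹ • _) = ((Real.sqrt 2)⁻¹ • _) * _
    rw [mul_smul_comm, smul_mul_assoc, mul_sub, sub_mul]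
    congr 2 <;> exact reflPair_γ hab hcd _
  have hswap : refl b d * refl a c = -(refl a c * refl b d) := by
    simp only [refl, smul_mul_smul_comm, sub_mul, mul_sub, γ_anti hac.symm, γ_anti hbd.symm,
      γ_anti hab.symm, γ_anti had.symm, γ_anti hbc, γ_anti hcd.symm]
    rw [← smul_neg]; congr 1; abel
  have hAB : (A : (Mat n)ˣ).val * (B : (Mat n)ˣ).val = -((B : (Mat n)ˣ).val * (A : (Mat n)ˣ).val) := by
    show _ * (refl a c * refl b d) = -((refl a c * refl b d) * _)
    rw [← mul_assoc, hM, mul_assoc, hM, ← mul_assoc]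
    rw [Equiv.swap_apply_of_ne_of_ne hac had, Equiv.swap_apply_left a b, Equiv.swap_apply_left c d,
      Equiv.swap_apply_of_ne_of_ne had.symm hbd.symm, Equiv.swap_apply_of_ne_of_ne hbc hbd,
      Equiv.swap_apply_right a b, Equiv.swap_apply_right c d, Equiv.swap_apply_of_ne_of_ne hac.symm hbc.symm,
      hswap, neg_mul]
  have : negOne n = ⁅A, B⁆ := by
    rw [commutatorElement_def, eq_mul_inv_iff_mul_eq, eq_mul_inv_iff_mul_eq]
    refine Subtype.ext (Units.ext ?_)
    show (-1) * (B : (Mat n)ˣ).val * (A : (Mat n)ˣ).val = (A : (Mat n)ˣ).val * (B : (Mat n)ˣ).val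
    rw [hAB, neg_one_mul, neg_mul]
  rw [this]
  exact Subgroup.commutator_mem_commutator (Subgroup.mem_top _) (Subgroup.mem_top _)

theorem cover_finite : Finite (cover n) := by
  haveI : Finite (toAlt (n := n)).ker := by
    refine Finite.of_surjective (fun b : Bool => (if b then ⟨1, one_mem _⟩ else ⟨negOne n, ?_⟩ : (toAlt (n := n)).ker)) ?_
    · exact perm_unique (negOne n) 1 (by simp [negOne])
    · rintro ⟨g, hg⟩
      rcases ker_toAlt g hg with rfl | rfl
      · exact ⟨true, rfl⟩
      · exact ⟨false, rfl⟩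
  haveI : Finite (cover n ⧸ (toAlt (n := n)).ker) :=
    Finite.of_equiv _ (QuotientGroup.quotientKerEquivOfSurjective _ toAlt_surjective).symm.toEquiv
  exact Finite.of_equiv _ (Subgroup.groupEquivQuotientProdSubgroup (s := (toAlt (n := n)).ker)).symm

end Cfsg.Agent.AltSpin
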