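import Mathlib
import Cfsg.Prelude.Def_KGroupFacts

/-!
# Extensions by bilinear cocycles
-/

set_option autoImplicit false

open scoped commutatorElement

universe u v

namespace Cfsg.Agent.Stem

/-- the extension of `G` by `T` given by a bilinear cocycle `f` -/
@[ext] structure BilExt {G : Type u} [Group G] {T : Type v} [AddCommGroup T] (f : G → G → T)
    (hl : ∀ a b c, f (a * b) c = f a c + f b c) (hr : ∀ a b c, f a (b * c) = f a b + f a c) where
  /-- base -/
  base : G
  /-- fibre -/
  fib : T

namespace BilExt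

variable {G : Type u} [Group G] {T : Type v} [AddCommGroup T] {f : G → G → T}
  {hl : ∀ a b c, f (a * b) c = f a c + f b c} {hr : ∀ a b c, f a (b * c) = f a b + f a c}

instance : Mul (BilExt f hl hr) := ⟨fun u v => ⟨u.base * v.base, u.fib + v.fib + f u.base v.base⟩⟩
instance : One (BilExt f hl hr) := ⟨⟨1, 0⟩⟩
instance : Inv (BilExt f hl hr) := ⟨fun u => ⟨u.base⁻¹, -u.fib + f u.base u.base⟩⟩

theorem f_one_left (hl : ∀ a b c, f (a * b) c = f a c + f b c) (c : G) : f 1 c = 0 := by simpa using hl 1 1 c

theorem f_one_right (hr : ∀ a b c, f a (b * c) = f a b + f a c) (a : G) : f a 1 = 0 := by simpa using hr a 1 1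

instance : Group (BilExt f hl hr) := Group.ofLeftAxioms
  (fun u v t => by
    refine BilExt.ext (mul_assoc _ _ _) ?_
    show (u.fib + v.fib + f u.base v.base) + t.fib + f (u.base * v.base) t.base =
      u.fib + (v.fib + t.fib + f v.base t.base) + f u.base (v.base * t.base)
    rw [hl, hr]; abel)
  (fun u => by
    refine BilExt.ext (one_mul _) ?_
    show (0 : T) + u.fib + f 1 u.base = u.fib
    rw [f_one_left hl]; abel)
  (fun u => by
    refine BilExt.ext (inv_mul_cancel _) ?_
    show -u.fib + f u.base u.base + u.fib + f u.base⁻¹ u.base = 0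
    have h1 : f u.base⁻¹ u.base = -f u.base u.base :=
      eq_neg_of_add_eq_zero_left (by rw [← hl, inv_mul_cancel, f_one_left hl])
    rw [h1]; abel)

instance [Finite G] [Finite T] : Finite (BilExt f hl hr) :=
  Finite.of_injective (fun u : BilExt f hl hr => (u.base, u.fib))
    (fun _ _ h => BilExt.ext (congrArg Prod.fst h) (congrArg Prod.snd h))

/-- the projection -/
def proj : BilExt f hl hr →* G where
  toFun := BilExt.base
  map_one' := rfl
  map_mul' _ _ := rfl

/-- the kernel of the projection -/
def incl : Multiplicative T →* BilExt f hl hr where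
  toFun t := ⟨1, Multiplicative.toAdd t⟩
  map_one' := rfl
  map_mul' a b := by
    refine BilExt.ext (one_mul 1).symm ?_
    show _ = Multiplicative.toAdd a + Multiplicative.toAdd b + f 1 1
    rw [f_one_left hl, add_zero]; rfl

theorem proj_surjective : Function.Surjective (proj : BilExt f hl hr →* G) := fun a => ⟨⟨a, 0⟩, rfl⟩

theorem proj_ker_central : (proj : BilExt f hl hr →* G).ker ≤ Subgroup.center (BilExt f hl hr) := by
  rintro ⟨a, k⟩ (rfl : a = 1)
  refine Subgroup.mem_center_iff.mpr fun u => BilExt.ext ?_ ?_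
  · show u.base * 1 = 1 * u.base
    rw [mul_one, one_mul]
  · show u.fib + k + f u.base 1 = k + u.fib + f 1 u.base
    rw [f_one_left hl, f_one_right hr]; abel

/-- the kernel is a copy of `T` -/
def kerEquiv : (proj : BilExt f hl hr →* G).ker ≃* Multiplicative T where
  toFun x := Multiplicative.ofAdd x.1.fib
  invFun t := ⟨incl t, rfl⟩
  left_inv x := Subtype.ext (BilExt.ext (show (1 : G) = x.1.base from x.2.symm) rfl)
  right_inv _ := rfl
  map_mul' x y := by
    show Multiplicative.ofAdd (x.1.fib + y.1.fib + f x.1.base y.1.base) = _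
    rw [show x.1.base = 1 from x.2, f_one_left hl, add_zero]; rfl

/-- commutators of commuting elements of the base -/
theorem incl_mem_commutator (a b : G) (hab : a * b = b * a) :
    incl (Multiplicative.ofAdd (f a b - f b a)) ∈ commutator (BilExt f hl hr) := by
  have h : (⟨a, 0⟩ : BilExt f hl hr) * ⟨b, 0⟩ = incl (Multiplicative.ofAdd (f a b - f b a)) * (⟨b, 0⟩ * ⟨a, 0⟩) := by
    refine BilExt.ext ?_ ?_
    · show a * b = 1 * (b * a)
      rw [one_mul, hab]
    · show (0 : T) + 0 + f a b = (f a b - f b a) + (0 + 0 + f b a) + f 1 (b * a)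
      rw [f_one_left hl]; abel
  have h2 : incl (Multiplicative.ofAdd (f a b - f b a)) = ⁅(⟨a, 0⟩ : BilExt f hl hr), (⟨b, 0⟩ : BilExt f hl hr)⁆ := by
    rw [commutatorElement_def, eq_mul_inv_iff_mul_eq, eq_mul_inv_iff_mul_eq, mul_assoc]
    exact h.symm
  rw [h2]
  exact Subgroup.commutator_mem_commutator (Subgroup.mem_top _) (Subgroup.mem_top _)

end BilExt

end Cfsg.Agent.Stem
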