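import Mathlib
import Cfsg.Prelude.Def_KGroupFacts

/-!
# From central extensions to stem extensions

A finite central extension can be replaced by a stem extension whose kernel is the part of the old
kernel inside the derived subgroup, keeping any given map onto a stem extension of the same group.
-/

set_option autoImplicit false

open scoped commutatorElement

universe u v w

namespace Cfsg.Agent.Stem

variable {E : Type u} {Q : Type v} {Δ : Type w} [Group E] [Group Q] [Group Δ]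

/-- every finite abelian group embeds in one in which all its elements are `N`-th powers -/
theorem exists_root_enlargement {K : Type u} [CommGroup K] [Finite K] (N : ℕ) (hN : 0 < N) :
    ∃ (D : Type) (_ : CommGroup D) (_ : Finite D) (ι : K →* D), Function.Injective ι ∧
      ∀ k : K, ∃ d : D, d ^ N = ι k := by
  obtain ⟨J, _, n, hn, ⟨e⟩⟩ := CommGroup.equiv_prod_multiplicative_zmod_of_finite K
  haveI : ∀ i, NeZero (N * n i) := fun i => ⟨(Nat.mul_pos hN (Nat.zero_lt_of_lt (hn i))).ne'⟩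
  have key : ∀ i, ∃ f : ZMod (n i) →+ ZMod (N * n i), Function.Injective f ∧ ∀ a, ∃ b, N • b = f a := by
    intro i
    let g : ℤ →+ ZMod (N * n i) := (zmultiplesHom _) ((N : ℕ) : ZMod (N * n i))
    have hg : g (n i : ℤ) = 0 := by
      show (n i : ℤ) • ((N : ℕ) : ZMod (N * n i)) = 0
      rw [natCast_zsmul, nsmul_eq_mul, ← Nat.cast_mul, mul_comm, ZMod.natCast_self]
    refine ⟨ZMod.lift (n i) ⟨g, hg⟩, (injective_iff_map_eq_zero _).mpr fun a ha => ?_, fun a => ?_⟩
    · obtain ⟨k, rfl⟩ := ZMod.intCast_surjective a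
      rw [ZMod.lift_coe] at ha
      have : ((k * N : ℤ) : ZMod (N * n i)) = 0 := by
        push_cast
        rw [← ha]
        show (k : ZMod (N * n i)) * N = k • ((N : ℕ) : ZMod (N * n i))
        rw [zsmul_eq_mul]
      rw [ZMod.intCast_zmod_eq_zero_iff_dvd] at this
      push_cast at this
      rw [ZMod.intCast_zmod_eq_zero_iff_dvd]
      rw [mul_comm (N : ℤ)] at this
      exact Int.dvd_of_mul_dvd_mul_right (by exact_mod_cast hN.ne') this
    · obtain ⟨k, rfl⟩ := ZMod.intCast_surjective a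
      refine ⟨(k : ZMod (N * n i)), ?_⟩
      rw [ZMod.lift_coe]
      show _ = k • ((N : ℕ) : ZMod (N * n i))
      rw [zsmul_eq_mul, nsmul_eq_mul]; exact mul_comm _ _
  choose f hfi hfr using key
  let ι : K →* ((i : J) → Multiplicative (ZMod (N * n i))) :=
    (MonoidHom.pi fun i => (AddMonoidHom.toMultiplicative (f i)).comp (Pi.evalMonoidHom _ i)).comp e.toMonoidHom
  refine ⟨(i : J) → Multiplicative (ZMod (N * n i)), inferInstance, inferInstance, ι, fun a b hab => ?_, fun k => ?_⟩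
  · refine e.injective (funext fun i => ?_)
    exact Multiplicative.toAdd.injective (hfi i (congrArg Multiplicative.toAdd (congrFun hab i)))
  · choose b hb using fun i => hfr i (Multiplicative.toAdd (e k i))
    refine ⟨fun i => Multiplicative.ofAdd (b i), funext fun i => ?_⟩
    show Multiplicative.ofAdd (b i) ^ N = _
    rw [← ofAdd_nsmul, hb]
    rfl

/-- a hom out of a finite abelian group from roots of unity above a decomposition -/
theorem exists_section {A B : Type*} [CommGroup A] [Finite A] [CommGroup B] (π : B →* A)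
    (h : ∀ a : A, ∀ n : ℕ, a ^ n = 1 → n ∣ Nat.card A → ∃ b, π b = a ∧ b ^ n = 1) :
    ∃ s : A →* B, π.comp s = MonoidHom.id A := by
  classical
  obtain ⟨J, _, n, hn, ⟨e⟩⟩ := CommGroup.equiv_prod_multiplicative_zmod_of_finite A
  haveI : ∀ i, NeZero (n i) := fun i => ⟨(Nat.zero_lt_of_lt (hn i)).ne'⟩
  let a : J → A := fun i => e.symm (Pi.mulSingle i (Multiplicative.ofAdd (1 : ZMod (n i))))
  have ha : ∀ i, a i ^ n i = 1 := fun i => by
    show e.symm _ ^ n i = 1
    rw [← map_pow, ← Pi.mulSingle_pow, ← ofAdd_nsmul, nsmul_eq_mul, ZMod.natCast_self, zero_mul,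
      ofAdd_zero, Pi.mulSingle_one, map_one]
  have hd : ∀ i, n i ∣ Nat.card A := fun i => by
    rw [Nat.card_congr e.toEquiv, Nat.card_pi]
    refine dvd_trans ?_ (Finset.dvd_prod_of_mem _ (Finset.mem_univ i))
    rw [Nat.card_congr Multiplicative.toAdd, Nat.card_zmod]
  choose b hb1 hb2 using fun i => h (a i) (n i) (ha i) (hd i)
  let φ : ∀ i, Multiplicative (ZMod (n i)) →* B := fun i =>
    (AddMonoidHom.toMultiplicativeLeft (ZMod.lift (n i) ⟨(zmultiplesHom _) (Additive.ofMul (b i)), by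
      show ((n i : ℤ)) • Additive.ofMul (b i) = 0
      rw [natCast_zsmul, ← ofMul_pow, hb2, ofMul_one]⟩))
  let s : ((i : J) → Multiplicative (ZMod (n i))) →* B :=
    MonoidHom.noncommPiCoprod φ (fun i j _ x y => Commute.all _ _)
  refine ⟨s.comp e.toMonoidHom, ?_⟩
  suffices hsuff : π.comp s = e.symm.toMonoidHom by
    ext x
    show π (s (e x)) = x
    rw [show π (s (e x)) = e.symm (e x) from DFunLike.congr_fun hsuff (e x), e.symm_apply_apply]
  refine MonoidHom.pi_ext fun i x => ?_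
  show π (s (Pi.mulSingle i x)) = e.symm (Pi.mulSingle i x)
  rw [show s (Pi.mulSingle i x) = φ i x from MonoidHom.noncommPiCoprod_mulSingle _ _ _]
  obtain ⟨k, rfl⟩ : ∃ k : ℤ, Multiplicative.ofAdd (k : ZMod (n i)) = x :=
    ⟨_, congrArg Multiplicative.ofAdd (ZMod.intCast_surjective (Multiplicative.toAdd x)).choose_spec⟩
  have h1 : φ i (Multiplicative.ofAdd (k : ZMod (n i))) = b i ^ k := by
    show Additive.toMul (ZMod.lift (n i) _ (k : ZMod (n i))) = _
    rw [ZMod.lift_coe]; rfl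
  rw [h1, map_zpow, hb1]
  show e.symm _ ^ k = _
  rw [← map_zpow, ← Pi.mulSingle_zpow, ← ofAdd_zsmul, zsmul_one]

/-- **Stemification** over a given stem extension. -/
theorem stemify [Finite E] [Finite Q] (σ : E →* Q) (hs : Function.Surjective σ)
    (hc : σ.ker ≤ Subgroup.center E) (τ : Δ →* Q) (hτ : Cfsg.IsStemExtension τ)
    (β : E →* Δ) (hβ : Function.Surjective β) (hcomp : τ.comp β = σ) :
    ∃ (Γ : Type u) (_ : Group Γ) (_ : Finite Γ) (σ₀ : Γ →* Q), Cfsg.IsStemExtension σ₀ ∧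
      Nonempty (σ₀.ker ≃* ↥(σ.ker ⊓ commutator E)) ∧
      ∃ β₀ : Γ →* Δ, Function.Surjective β₀ ∧ τ.comp β₀ = σ₀ := by
  classical
  have hτσ : ∀ x, τ (β x) = σ x := fun x => DFunLike.congr_fun hcomp x
  have hLK : β.ker ≤ σ.ker := fun x hx => by
    rw [MonoidHom.mem_ker, ← hτσ, MonoidHom.mem_ker.mp hx, map_one]
  haveI hLc : IsMulCommutative β.ker :=
    ⟨⟨fun a b => Subtype.ext ((Subgroup.mem_center_iff.mp (hc (hLK b.2))) a)⟩⟩
  letI : CommGroup β.ker := { (inferInstance : Group β.ker) with mul_comm := fun a b => hLc.is_comm.comm a b }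
  obtain ⟨D, _, _, ι, hι, hroot⟩ := exists_root_enlargement (K := β.ker) (Nat.card (Abelianization Q)) Nat.card_pos
  -- amalgamate
  let N : Subgroup (E × D) := ((β.ker.subtype).prod (ι⁻¹ : β.ker →* D)).range
  haveI hN : N.Normal := ⟨by
    rintro _ ⟨k, rfl⟩ g
    refine ⟨k, Prod.ext ?_ ?_⟩
    · show (k : E) = g.1 * (k : E) * g.1⁻¹
      rw [Subgroup.mem_center_iff.mp (hc (hLK k.2)) g.1, mul_inv_cancel_right]
    · show (ι k)⁻¹ = g.2 * (ι k)⁻¹ * g.2⁻¹
      rw [mul_comm g.2, mul_inv_cancel_right]⟩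
  let F := (E × D) ⧸ N
  let q : E × D →* F := QuotientGroup.mk' N
  have hq : Function.Surjective q := QuotientGroup.mk'_surjective N
  let σF : F →* Q := QuotientGroup.lift N (σ.comp (MonoidHom.fst E D)) (by
    rintro _ ⟨k, rfl⟩
    exact hLK k.2)
  let βF : F →* Δ := QuotientGroup.lift N (β.comp (MonoidHom.fst E D)) (by
    rintro _ ⟨k, rfl⟩
    exact k.2)
  have hσq : ∀ x, σF (q x) = σ x.1 := fun _ => rfl
  have hβq : ∀ x, βF (q x) = β x.1 := fun _ => rfl
  let j : E →* F := q.comp (MonoidHom.inl E D)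
  have hj : Function.Injective j := (injective_iff_map_eq_one j).mpr fun x hx => by
    obtain ⟨k, hk⟩ := (QuotientGroup.eq_one_iff _).mp hx
    have h1 : (k : E) = x := congrArg Prod.fst hk
    have h2 : (ι k)⁻¹ = 1 := congrArg Prod.snd hk
    rw [inv_eq_one] at h2
    rw [← h1, hι (h2.trans (map_one ι).symm)]; rfl
  have hdc : ∀ (d : D) (f : F), f * q (1, d) = q (1, d) * f := by
    intro d f
    obtain ⟨⟨e, d'⟩, rfl⟩ := hq f
    rw [← map_mul, ← map_mul]
    exact congrArg q (Prod.ext (by simp) (mul_comm _ _))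
  have hsplit : ∀ (e : E) (d : D), q (e, d) = j e * q (1, d) := fun e d => by
    show q (e, d) = q (e, 1) * q (1, d)
    rw [← map_mul]; simp
  have hder : commutator F = (commutator E).map j := by
    apply le_antisymm
    · rw [commutator_def, Subgroup.commutator_le]
      intro f₁ _ f₂ _
      obtain ⟨⟨e₁, d₁⟩, rfl⟩ := hq f₁
      obtain ⟨⟨e₂, d₂⟩, rfl⟩ := hq f₂
      refine ⟨⁅e₁, e₂⁆, Subgroup.commutator_mem_commutator (Subgroup.mem_top _) (Subgroup.mem_top _), ?_⟩
      show q (⁅e₁, e₂⁆, 1) = _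
      rw [← map_commutatorElement]
      exact congrArg q (Prod.ext rfl (commutatorElement_eq_one_iff_mul_comm.mpr (mul_comm d₁ d₂)).symm)
    · rw [commutator_def, commutator_def, Subgroup.map_commutator]
      exact Subgroup.commutator_mono le_top le_top
  -- a section of the abelianizations
  let π : Abelianization F →* Abelianization Q := Abelianization.map σF
  have hsec : ∀ a : Abelianization Q, ∀ n : ℕ, a ^ n = 1 → n ∣ Nat.card (Abelianization Q) →
      ∃ b, π b = a ∧ b ^ n = 1 := by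
    intro a n han hn
    obtain ⟨x, rfl⟩ := QuotientGroup.mk'_surjective (commutator Q) a
    obtain ⟨e, rfl⟩ := hs x
    have hQ : σ e ^ n ∈ commutator Q := by
      rw [← Abelianization.ker_of, MonoidHom.mem_ker, map_pow]; exact han
    have hΔ : β e ^ n ∈ commutator Δ := by
      have h1 : τ (β e ^ n) ∈ (commutator Δ).map τ := by
        rw [map_pow, hτσ]
        have : (commutator Δ).map τ = commutator Q := by
          rw [commutator_def, commutator_def, Subgroup.map_commutator, Subgroup.map_top_of_surjective τ hτ.1]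
        rw [this]; exact hQ
      obtain ⟨c, hc', hce⟩ := h1
      have : c⁻¹ * β e ^ n ∈ commutator Δ := hτ.2.2 (by rw [MonoidHom.mem_ker, map_mul, map_inv, hce, inv_mul_cancel])
      simpa using mul_mem hc' this
    obtain ⟨c, hc', hce⟩ : β e ^ n ∈ (commutator E).map β := by
      rw [commutator_def, Subgroup.map_commutator, Subgroup.map_top_of_surjective β hβ]; exact hΔ
    have hk : c⁻¹ * e ^ n ∈ β.ker := by rw [MonoidHom.mem_ker, map_mul, map_inv, map_pow, hce, inv_mul_cancel]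
    obtain ⟨d, hd⟩ := hroot ⟨_, hk⟩
    obtain ⟨m, hm⟩ := hn
    refine ⟨Abelianization.of (q (e, (d ^ m)⁻¹)), ?_, ?_⟩
    · show Abelianization.of (σF (q (e, (d ^ m)⁻¹))) = _
      rw [hσq]; rfl
    · rw [← map_pow, ← map_pow]
      rw [show Abelianization.of (q ((e, (d ^ m)⁻¹) ^ n)) = 1 ↔ q ((e, (d ^ m)⁻¹) ^ n) ∈ commutator F by
        rw [← Abelianization.ker_of, MonoidHom.mem_ker]]
      have heq : q ((e, (d ^ m)⁻¹) ^ n) = j c := by
        refine QuotientGroup.eq.mpr ⟨⟨_, hk⟩⁻¹, ?_⟩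
        refine Prod.ext ?_ ?_
        · show (c⁻¹ * e ^ n)⁻¹ = (e ^ n)⁻¹ * c
          group
        · show (ι (⟨_, hk⟩⁻¹))⁻¹ = (((d ^ m)⁻¹) ^ n)⁻¹ * 1
          rw [map_inv, inv_inv, mul_one, inv_pow, inv_inv, ← pow_mul, mul_comm m n, ← hm, hd]
      rw [heq, hder]
      exact ⟨c, hc', rfl⟩
  obtain ⟨s, hs'⟩ := exists_section π hsec
  let Γ : Subgroup F := s.range.comap Abelianization.of
  have hΓd : commutator F ≤ Γ := fun x hx => by
    show Abelianization.of x ∈ s.range
    rw [MonoidHom.mem_ker.mp (show x ∈ Abelianization.of.ker by rwa [Abelianization.ker_of])]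
    exact one_mem _
  have hπs : ∀ a, π (s a) = a := fun a => DFunLike.congr_fun hs' a
  have hΓsurj : ∀ x, ∃ g ∈ Γ, σF g = x := by
    intro x
    obtain ⟨f, hf⟩ := QuotientGroup.mk'_surjective (commutator F) (s (Abelianization.of x))
    have h1 : Abelianization.of (σF f) = Abelianization.of x := by
      have := congrArg π hf
      rw [hπs] at this
      exact this
    have h2 : (σF f)⁻¹ * x ∈ commutator Q := by
      rw [← Abelianization.ker_of, MonoidHom.mem_ker, map_mul, map_inv, h1, inv_mul_cancel]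
    have hmap : (commutator F).map σF = commutator Q := by
      rw [commutator_def, commutator_def, Subgroup.map_commutator, Subgroup.map_top_of_surjective σF]
      intro y
      obtain ⟨e, he⟩ := hs y
      exact ⟨q (e, 1), he⟩
    rw [← hmap] at h2
    obtain ⟨c, hc', hce⟩ := h2
    refine ⟨f * c, mul_mem ⟨_, hf.symm⟩ (hΓd hc'), ?_⟩
    rw [map_mul, hce, mul_inv_cancel_left]
  have hkc : ∀ f, σF f = 1 → ∀ g, g * f = f * g := by
    intro f hf g
    obtain ⟨⟨e, d⟩, rfl⟩ := hq f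
    rw [hsplit]
    have he : ∀ g, g * j e = j e * g := by
      intro g
      obtain ⟨⟨e', d'⟩, rfl⟩ := hq g
      show q (e', d') * q (e, 1) = q (e, 1) * q (e', d')
      rw [← map_mul, ← map_mul]
      exact congrArg q (Prod.ext (Subgroup.mem_center_iff.mp (hc (MonoidHom.mem_ker.mpr hf)) e') (mul_comm _ _))
    rw [← mul_assoc, he, mul_assoc, hdc, mul_assoc]
  have hker : ∀ g ∈ Γ, σF g = 1 → g ∈ commutator F := by
    rintro g ⟨a, ha⟩ hg
    have : a = 1 := by
      have := congrArg π ha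
      rw [hπs] at this
      rw [this]; show Abelianization.of (σF g) = 1
      rw [hg, map_one]
    rw [← Abelianization.ker_of, MonoidHom.mem_ker, ← ha, this, map_one]
  have hΓfull : ∀ f, ∃ g ∈ Γ, σF (g⁻¹ * f) = 1 := fun f => by
    obtain ⟨g, hg, hge⟩ := hΓsurj (σF f)
    exact ⟨g, hg, by rw [map_mul, map_inv, hge, inv_mul_cancel]⟩
  have hΓder : commutator F = (commutator Γ).map Γ.subtype := by
    apply le_antisymm
    · rw [commutator_def, Subgroup.commutator_le]
      intro f₁ _ f₂ _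
      obtain ⟨g₁, hg₁, h₁⟩ := hΓfull f₁
      obtain ⟨g₂, hg₂, h₂⟩ := hΓfull f₂
      refine ⟨⁅(⟨g₁, hg₁⟩ : Γ), ⟨g₂, hg₂⟩⁆, Subgroup.commutator_mem_commutator (Subgroup.mem_top _) (Subgroup.mem_top _), ?_⟩
      show ⁅g₁, g₂⁆ = ⁅f₁, f₂⁆
      conv_rhs => rw [show f₁ = g₁ * (g₁⁻¹ * f₁) by group, show f₂ = g₂ * (g₂⁻¹ * f₂) by group]
      have c₁ := hkc _ h₁
      have c₂ := hkc _ h₂
      generalize g₁⁻¹ * f₁ = z₁ at *
      generalize g₂⁻¹ * f₂ = z₂ at *
      rw [commutatorElement_def, commutatorElement_def]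
      symm
      calc g₁ * z₁ * (g₂ * z₂) * (g₁ * z₁)⁻¹ * (g₂ * z₂)⁻¹
          = g₁ * (z₁ * (g₂ * z₂)) * z₁⁻¹ * g₁⁻¹ * z₂⁻¹ * g₂⁻¹ := by group
        _ = g₁ * g₂ * (z₂ * g₁⁻¹) * z₂⁻¹ * g₂⁻¹ := by rw [← c₁]; group
        _ = g₁ * g₂ * g₁⁻¹ * g₂⁻¹ := by rw [← c₂]; group
    · rw [commutator_def, commutator_def, Subgroup.map_commutator]
      exact Subgroup.commutator_mono le_top le_top
  let σ₀ : Γ →* Q := σF.comp Γ.subtype
  have hsurj₀ : Function.Surjective σ₀ := fun x => by
    obtain ⟨g, hg, hgx⟩ := hΓsurj x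
    exact ⟨⟨g, hg⟩, hgx⟩
  have hmemd : ∀ g : Γ, (g : F) ∈ commutator F → g ∈ commutator Γ := fun g hg => by
    rw [hΓder] at hg
    obtain ⟨g', hg', he⟩ := hg
    rwa [← show g' = g from Subtype.ext he]
  have hj2 : ∀ g : Γ, σ₀ g = 1 → ∃ e ∈ σ.ker ⊓ commutator E, j e = g := by
    intro g hg
    have := hker g g.2 hg
    rw [hder] at this
    obtain ⟨e, he, hje⟩ := this
    refine ⟨e, ⟨?_, he⟩, hje⟩
    show σ e = 1
    rw [show σ e = σF (j e) from rfl, hje]; exact hg
  let φ : ↥(σ.ker ⊓ commutator E) →* σ₀.ker :=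
    { toFun := fun x => ⟨⟨j x, hΓd (by rw [hder]; exact ⟨_, x.2.2, rfl⟩)⟩, x.2.1⟩
      map_one' := Subtype.ext (Subtype.ext (map_one j))
      map_mul' := fun x y => Subtype.ext (Subtype.ext (map_mul j _ _)) }
  refine ⟨Γ, inferInstance, inferInstance, σ₀, ⟨hsurj₀, fun g hg => ?_, fun g hg => ?_⟩,
    ⟨(MulEquiv.ofBijective φ ⟨fun x y h => Subtype.ext (hj (congrArg (fun z : σ₀.ker => ((z : Γ) : F)) h)), fun g => ?_⟩).symm⟩,
    βF.comp Γ.subtype, ?_, ?_⟩
  · exact Subgroup.mem_center_iff.mpr fun x => Subtype.ext (hkc _ hg _)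
  · exact hmemd g (hker g g.2 hg)
  · obtain ⟨e, he, hje⟩ := hj2 g g.2
    exact ⟨⟨e, he⟩, Subtype.ext (Subtype.ext hje)⟩
  · -- onto, as the image covers the quotient and contains the derived subgroup
    intro y
    obtain ⟨g, hg⟩ := hsurj₀ (τ y)
    have hk : (βF g)⁻¹ * y ∈ commutator Δ := hτ.2.2 (by
      rw [MonoidHom.mem_ker, map_mul, map_inv]
      rw [show τ (βF g) = σ₀ g by
        show τ (βF g) = σF g
        obtain ⟨x, hx⟩ := hq (g : F)
        rw [← hx, hβq, hσq, hτσ], hg, inv_mul_cancel])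
    obtain ⟨c, hc', hce⟩ : (βF g)⁻¹ * y ∈ (commutator E).map β := by
      rw [commutator_def, Subgroup.map_commutator, Subgroup.map_top_of_surjective β hβ]; exact hk
    refine ⟨g * ⟨j c, hΓd (by rw [hder]; exact ⟨c, hc', rfl⟩)⟩, ?_⟩
    show βF ((g : F) * j c) = y
    rw [map_mul, show βF (j c) = β c from rfl, hce, mul_inv_cancel_left]
  · ext g
    show τ (βF g) = σF g
    obtain ⟨x, hx⟩ := hq (g : F)
    rw [← hx, hβq, hσq, hτσ]

end Cfsg.Agent.Stem
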