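import Mathlib
import Cfsg.Prelude.Def_KGroupFacts
import Cfsg.Agent.Lib.Stem.Stemify

/-!
# Schur covers
-/

set_option autoImplicit false

open scoped commutatorElement

universe u v w

namespace Cfsg.Agent.Stem

/-- the derived subgroup maps onto the derived subgroup -/
theorem map_commutator_surj {A B : Type*} [Group A] [Group B] (f : A →* B) (hf : Function.Surjective f) :
    (commutator A).map f = commutator B := by
  rw [commutator_def, commutator_def, Subgroup.map_commutator, Subgroup.map_top_of_surjective f hf]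

theorem isStemExtension_id {Q : Type u} [Group Q] : Cfsg.IsStemExtension (MonoidHom.id Q) := by
  refine ⟨fun x => ⟨x, rfl⟩, ?_, ?_⟩ <;>
    (intro x hx; rw [show x = 1 from hx]; exact one_mem _)

/-- stem extensions are transported along isomorphisms -/
theorem isStemExtension_comp_equiv {Γ : Type u} {Γ' : Type v} {Q : Type w} [Group Γ] [Group Γ'] [Group Q]
    (e : Γ' ≃* Γ) {σ : Γ →* Q} (h : Cfsg.IsStemExtension σ) : Cfsg.IsStemExtension (σ.comp e.toMonoidHom) := by
  refine ⟨h.1.comp e.surjective, fun x hx => Subgroup.mem_center_iff.mpr fun y => e.injective ?_, fun x hx => ?_⟩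
  · rw [map_mul, map_mul]
    exact Subgroup.mem_center_iff.mp (h.2.1 hx) (e y)
  · have : e x ∈ (commutator Γ').map e.toMonoidHom := by
      rw [map_commutator_surj (e.toMonoidHom) e.surjective]; exact h.2.2 hx
    obtain ⟨y, hy, hye⟩ := this
    rwa [← e.injective hye]

/-- the kernels of the composite with an isomorphism -/
def kerCompEquiv {Γ : Type u} {Γ' : Type v} {Q : Type w} [Group Γ] [Group Γ'] [Group Q]
    (e : Γ' ≃* Γ) (σ : Γ →* Q) : (σ.comp e.toMonoidHom).ker ≃* σ.ker where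
  toFun x := ⟨e x, x.2⟩
  invFun x := ⟨e.symm x, by
    show σ (e (e.symm (x : Γ))) = 1
    rw [e.apply_symm_apply]; exact x.2⟩
  left_inv x := Subtype.ext (e.symm_apply_apply _)
  right_inv x := Subtype.ext (e.apply_symm_apply _)
  map_mul' _ _ := Subtype.ext (map_mul e _ _)

/-- the kernel of a multiplier maps onto the kernel of any finite stem extension, in any universe -/
theorem stem_kernel_image {Q : Type u} [Group Q] {A : Type v} [CommGroup A] (hA : Cfsg.HasSchurMultiplier Q A)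
    {Δ : Type w} [Group Δ] [Finite Δ] (τ : Δ →* Q) (hτ : Cfsg.IsStemExtension τ) :
    ∃ π : A →* τ.ker, Function.Surjective π := by
  haveI : Small.{u} Δ := by
    obtain ⟨n, ⟨f⟩⟩ := Finite.exists_equiv_fin Δ
    exact ⟨⟨ULift.{u} (Fin n), ⟨f.trans Equiv.ulift.symm⟩⟩⟩
  let e : Shrink.{u} Δ ≃* Δ := Shrink.mulEquiv
  obtain ⟨π, hπ⟩ := hA.2 (Shrink.{u} Δ) (τ.comp e.toMonoidHom) (isStemExtension_comp_equiv e hτ)
  exact ⟨(kerCompEquiv e τ).toMonoidHom.comp π, (kerCompEquiv e τ).surjective.comp hπ⟩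

theorem finite_of_multiplier {Q : Type u} [Group Q] {A : Type v} [CommGroup A] (hA : Cfsg.HasSchurMultiplier Q A) :
    Finite A := by
  obtain ⟨Γ, _, _, σ, -, ⟨e⟩⟩ := hA.1
  exact Finite.of_equiv _ e.toEquiv

/-- the kernel of a multiplier maps onto the derived part of the kernel of any finite central extension -/
theorem central_kernel_image {Q : Type u} [Group Q] {A : Type v} [CommGroup A] (hA : Cfsg.HasSchurMultiplier Q A)
    {E : Type w} [Group E] [Finite E] (σ : E →* Q) (hs : Function.Surjective σ) (hc : σ.ker ≤ Subgroup.center E) :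
    ∃ π : A →* ↥(σ.ker ⊓ commutator E), Function.Surjective π := by
  haveI : Finite Q := Finite.of_surjective σ hs
  obtain ⟨Γ, _, _, σ₀, h₀, ⟨e⟩, -⟩ := stemify σ hs hc (MonoidHom.id Q) isStemExtension_id σ hs rfl
  obtain ⟨π, hπ⟩ := stem_kernel_image hA σ₀ h₀
  exact ⟨e.toMonoidHom.comp π, e.surjective.comp hπ⟩

/-- trivial multiplier: the kernel of a central extension meets the derived subgroup trivially -/
theorem eq_one_of_trivial_multiplier {Q : Type u} [Group Q] (hA : Cfsg.HasCyclicSchurMultiplier Q 1)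
    {E : Type w} [Group E] [Finite E] (σ : E →* Q) (hs : Function.Surjective σ) (hc : σ.ker ≤ Subgroup.center E)
    {z : E} (hz : σ z = 1) (hzd : z ∈ commutator E) : z = 1 := by
  obtain ⟨π, hπ⟩ := central_kernel_image hA σ hs hc
  obtain ⟨a, ha⟩ := hπ ⟨z, hz, hzd⟩
  haveI : Subsingleton (Multiplicative (ZMod 1)) := inferInstanceAs (Subsingleton (ZMod 1))
  rw [Subsingleton.elim a 1, map_one] at ha
  exact (congrArg Subtype.val ha).symm

/-! ### fibre products -/

section
variable {Q : Type u} [Group Q] {Γ : Type v} {Δ : Type w} [Group Γ] [Group Δ] (σ : Γ →* Q) (τ : Δ →* Q)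

/-- the fibre product -/
def fib : Subgroup (Γ × Δ) := (σ.comp (MonoidHom.fst Γ Δ)).eqLocus (τ.comp (MonoidHom.snd Γ Δ))

theorem mem_fib {x : Γ × Δ} : x ∈ fib σ τ ↔ σ x.1 = τ x.2 := Iff.rfl

/-- the first projection -/
def fibFst : fib σ τ →* Γ := (MonoidHom.fst Γ Δ).comp (fib σ τ).subtype

/-- the second projection -/
def fibSnd : fib σ τ →* Δ := (MonoidHom.snd Γ Δ).comp (fib σ τ).subtype

/-- the map to the base -/
def fibBase : fib σ τ →* Q := σ.comp (fibFst σ τ)

theorem fibBase_eq (x : fib σ τ) : fibBase σ τ x = τ (fibSnd σ τ x) := x.2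

variable {σ τ}

theorem fibFst_surjective (hτ : Function.Surjective τ) : Function.Surjective (fibFst σ τ) := fun g => by
  obtain ⟨d, hd⟩ := hτ (σ g)
  exact ⟨⟨(g, d), hd.symm⟩, rfl⟩

theorem fibSnd_surjective (hσ : Function.Surjective σ) : Function.Surjective (fibSnd σ τ) := fun d => by
  obtain ⟨g, hg⟩ := hσ (τ d)
  exact ⟨⟨(g, d), hg⟩, rfl⟩

theorem fibBase_surjective (hσ : Function.Surjective σ) (hτ : Function.Surjective τ) :
    Function.Surjective (fibBase σ τ) := hσ.comp (fibFst_surjective hτ)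

theorem fibBase_central (hσ : σ.ker ≤ Subgroup.center Γ) (hτ : τ.ker ≤ Subgroup.center Δ) :
    (fibBase σ τ).ker ≤ Subgroup.center (fib σ τ) := fun x hx =>
  Subgroup.mem_center_iff.mpr fun y => Subtype.ext (Prod.ext
    (Subgroup.mem_center_iff.mp (hσ hx) _)
    (Subgroup.mem_center_iff.mp (hτ (show τ _ = 1 from (fibBase_eq σ τ x).symm.trans hx)) _))

theorem fibFst_central (hτ : τ.ker ≤ Subgroup.center Δ) :
    (fibFst σ τ).ker ≤ Subgroup.center (fib σ τ) := fun x hx => by
  have hx1 : (x : Γ × Δ).1 = 1 := hx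
  refine Subgroup.mem_center_iff.mpr fun y => Subtype.ext (Prod.ext ?_
    (Subgroup.mem_center_iff.mp (hτ (show τ _ = 1 by
      rw [show τ (x : Γ × Δ).2 = σ (x : Γ × Δ).1 from x.2.symm, hx1, map_one])) _))
  show (y : Γ × Δ).1 * (x : Γ × Δ).1 = (x : Γ × Δ).1 * (y : Γ × Δ).1
  rw [hx1, mul_one, one_mul]

variable (σ τ) in
/-- the derived part of the kernel of the fibre product -/
abbrev fibKer : Subgroup (fib σ τ) := (fibBase σ τ).ker ⊓ commutator (fib σ τ)

variable (σ τ) in
/-- its first projection -/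
def fibKerFst : fibKer σ τ →* σ.ker :=
  ((fibFst σ τ).comp (fibKer σ τ).subtype).codRestrict _ fun x => x.2.1

variable (σ τ) in
/-- its second projection -/
def fibKerSnd : fibKer σ τ →* τ.ker :=
  ((fibSnd σ τ).comp (fibKer σ τ).subtype).codRestrict _ fun x =>
    show τ _ = 1 from ((fibBase_eq σ τ x.1).symm).trans x.2.1

theorem fibKerFst_surjective (hτ : Function.Surjective τ) (hσ : σ.ker ≤ commutator Γ) :
    Function.Surjective (fibKerFst σ τ) := fun k => by
  have h : (k : Γ) ∈ (commutator (fib σ τ)).map (fibFst σ τ) := by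
    rw [map_commutator_surj _ (fibFst_surjective hτ)]; exact hσ k.2
  obtain ⟨x, hx, hxk⟩ := h
  exact ⟨⟨x, show σ (fibFst σ τ x) = 1 by rw [hxk]; exact k.2, hx⟩, Subtype.ext hxk⟩

theorem fibKerSnd_surjective (hσ : Function.Surjective σ) (hτ : τ.ker ≤ commutator Δ) :
    Function.Surjective (fibKerSnd σ τ) := fun k => by
  have h : (k : Δ) ∈ (commutator (fib σ τ)).map (fibSnd σ τ) := by
    rw [map_commutator_surj _ (fibSnd_surjective hσ)]; exact hτ k.2
  obtain ⟨x, hx, hxk⟩ := h
  exact ⟨⟨x, show fibBase σ τ x = 1 by rw [fibBase_eq, hxk]; exact k.2, hx⟩, Subtype.ext hxk⟩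

end

theorem card_le_of_surjective {A B : Type*} [Finite A] (f : A → B) (hf : Function.Surjective f) :
    Nat.card B ≤ Nat.card A := Nat.card_le_card_of_surjective f hf

theorem bijective_of_surjective_card_le {A B : Type*} [Finite A] (f : A → B) (hf : Function.Surjective f)
    (h : Nat.card A ≤ Nat.card B) : Function.Bijective f := by
  haveI : Finite B := Finite.of_surjective f hf
  exact (Nat.bijective_iff_surjective_and_card f).mpr ⟨hf, le_antisymm h (card_le_of_surjective f hf)⟩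

/-- for a cover, the derived subgroup of the fibre product projects isomorphically -/
theorem fibFst_injOn_commutator {Q : Type u} [Group Q] [Finite Q] {A : Type v} [CommGroup A]
    (hA : Cfsg.HasSchurMultiplier Q A) {Γ : Type w} [Group Γ] [Finite Γ] {σ : Γ →* Q}
    (hσ : Cfsg.IsStemExtension σ) (hk : Nat.card σ.ker = Nat.card A)
    {Δ : Type*} [Group Δ] [Finite Δ] {τ : Δ →* Q} (hτs : Function.Surjective τ)
    (hτc : τ.ker ≤ Subgroup.center Δ) :
    Function.Bijective (fibKerFst σ τ) ∧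
      ∀ x ∈ commutator (fib σ τ), fibFst σ τ x = 1 → x = 1 := by
  have hs := fibKerFst_surjective (σ := σ) (τ := τ) hτs hσ.2.2
  haveI := finite_of_multiplier hA
  obtain ⟨π, hπ⟩ := central_kernel_image hA (fibBase σ τ) (fibBase_surjective hσ.1 hτs)
    (fibBase_central hσ.2.1 hτc)
  have hb := bijective_of_surjective_card_le (fibKerFst σ τ) hs (by
    rw [hk]; exact card_le_of_surjective π hπ)
  refine ⟨hb, fun x hx h1 => ?_⟩
  have hx1 : fibBase σ τ x = 1 := by
    show σ (fibFst σ τ x) = 1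
    rw [h1, map_one]
  have : (⟨x, hx1, hx⟩ : fibKer σ τ) = 1 := hb.1 (by rw [map_one]; exact Subtype.ext h1)
  exact congrArg Subtype.val this

/-- a criterion for the multiplier -/
theorem multiplier_of_image {Q : Type u} [Group Q] {A : Type v} [CommGroup A]
    {Γ : Type w} [Group Γ] [Finite Γ] {σ : Γ →* Q} (hσ : Cfsg.IsStemExtension σ) (e : σ.ker ≃* A)
    (h : ∀ (Δ : Type u) [Group Δ] [Finite Δ] (τ : Δ →* Q), Cfsg.IsStemExtension τ →
      ∃ π : A →* τ.ker, Function.Surjective π) :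
    Cfsg.HasSchurMultiplier Q A := by
  haveI : Small.{u} Γ := by
    obtain ⟨n, ⟨f⟩⟩ := Finite.exists_equiv_fin Γ
    exact ⟨⟨ULift.{u} (Fin n), ⟨f.trans Equiv.ulift.symm⟩⟩⟩
  let e' : Shrink.{u} Γ ≃* Γ := Shrink.mulEquiv
  exact ⟨⟨Shrink.{u} Γ, inferInstance, inferInstance, σ.comp e'.toMonoidHom, isStemExtension_comp_equiv e' hσ,
    ⟨(kerCompEquiv e' σ).trans e⟩⟩, h⟩

/-- a stem extension by a group of trivial multiplier dominates every stem extension -/
theorem kernel_surj_of_trivial_multiplier {Q : Type u} [Group Q] {Γ : Type v} [Group Γ] [Finite Γ] {σ : Γ →* Q}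
    (hσ : Cfsg.IsStemExtension σ) (hΓ : Cfsg.HasCyclicSchurMultiplier Γ 1)
    {Δ : Type w} [Group Δ] [Finite Δ] {τ : Δ →* Q} (hτ : Cfsg.IsStemExtension τ) :
    ∃ π : σ.ker →* τ.ker, Function.Surjective π := by
  have hinj : Function.Injective (fibKerFst σ τ) := by
    refine (injective_iff_map_eq_one _).mpr fun x hx => Subtype.ext ?_
    exact eq_one_of_trivial_multiplier hΓ (fibFst σ τ) (fibFst_surjective hτ.1) (fibFst_central hτ.2.1)
      (congrArg Subtype.val hx) x.2.2
  let e := MulEquiv.ofBijective (fibKerFst σ τ) ⟨hinj, fibKerFst_surjective hτ.1 hσ.2.2⟩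
  exact ⟨(fibKerSnd σ τ).comp e.symm.toMonoidHom, (fibKerSnd_surjective hσ.1 hτ.2.2).comp e.symm.surjective⟩

/-- a stem extension by a group of trivial multiplier gives the multiplier -/
theorem multiplier_of_cover {Q : Type u} [Group Q] {A : Type v} [CommGroup A] {Γ : Type w} [Group Γ] [Finite Γ]
    {σ : Γ →* Q} (hσ : Cfsg.IsStemExtension σ) (e : σ.ker ≃* A) (hΓ : Cfsg.HasCyclicSchurMultiplier Γ 1) :
    Cfsg.HasSchurMultiplier Q A :=
  multiplier_of_image hσ e fun _ _ _ _ hτ => by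
    obtain ⟨π, hπ⟩ := kernel_surj_of_trivial_multiplier hσ hΓ hτ
    exact ⟨π.comp e.symm.toMonoidHom, hπ.comp e.symm.surjective⟩

/-- every finite group has a multiplier -/
theorem exists_multiplier (Q : Type u) [Group Q] [Finite Q] :
    ∃ (A : Type u) (_ : CommGroup A), Cfsg.HasSchurMultiplier Q A := by
  classical
  set B := (Finset.range (Nat.card (Q × Q) + 1)).sup Subgroup.cardCommutatorBound with hB
  let p : ℕ → Prop := fun n => ∃ (Γ : Type u) (_ : Group Γ) (_ : Finite Γ) (σ : Γ →* Q),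
    Cfsg.IsStemExtension σ ∧ Nat.card σ.ker = n
  have hbound : ∀ n, p n → n ≤ B := by
    rintro n ⟨Γ, _, _, σ, hσ, rfl⟩
    choose s hs using hσ.1
    have hset : Nat.card (commutatorSet Γ) ≤ Nat.card (Q × Q) := by
      refine card_le_of_surjective (fun x : Q × Q => (⟨⁅s x.1, s x.2⁆, ⟨_, _, rfl⟩⟩ : commutatorSet Γ)) ?_
      rintro ⟨_, a, b, rfl⟩
      refine ⟨(σ a, σ b), Subtype.ext ?_⟩
      have cz : ∀ {z : Γ}, σ z = 1 → ∀ g, g * z = z * g := fun hz g =>
        Subgroup.mem_center_iff.mp (hσ.2.1 (MonoidHom.mem_ker.mpr hz)) g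
      have key : ∀ (x y z : Γ), σ z = 1 → ⁅x * z, y⁆ = ⁅x, y⁆ := fun x y z hz => by
        rw [commutatorElement_def, commutatorElement_def]
        calc x * z * y * (x * z)⁻¹ * y⁻¹ = x * (z * y) * z⁻¹ * x⁻¹ * y⁻¹ := by group
          _ = _ := by rw [← cz hz y]; group
      have key2 : ∀ (x y z : Γ), σ z = 1 → ⁅x, y * z⁆ = ⁅x, y⁆ := fun x y z hz => by
        rw [← commutatorElement_inv, key y x z hz, commutatorElement_inv]
      show ⁅s (σ a), s (σ b)⁆ = ⁅a, b⁆
      calc ⁅s (σ a), s (σ b)⁆ = ⁅a * (a⁻¹ * s (σ a)), b * (b⁻¹ * s (σ b))⁆ := by simp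
        _ = _ := by rw [key _ _ _ (by simp [hs]), key2 _ _ _ (by simp [hs])]
    calc Nat.card σ.ker ≤ Nat.card (commutator Γ) := Nat.card_le_card_of_injective _ (Subgroup.inclusion_injective hσ.2.2)
      _ ≤ Subgroup.cardCommutatorBound (Nat.card (commutatorSet Γ)) := Subgroup.card_commutator_le_of_finite_commutatorSet Γ
      _ ≤ B := Finset.le_sup (f := Subgroup.cardCommutatorBound) (Finset.mem_range.mpr (Nat.lt_succ_of_le hset))
  have h1 : p 1 := ⟨Q, inferInstance, inferInstance, MonoidHom.id Q, isStemExtension_id, by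
    rw [Subgroup.card_eq_one]; exact (MonoidHom.ker_eq_bot_iff _).mpr fun a b h => h⟩
  have hm : p (Nat.findGreatest p B) := Nat.findGreatest_spec (hbound 1 h1) h1
  obtain ⟨Γ, _, _, σ, hσ, hcard⟩ := hm
  letI : CommGroup σ.ker := { (inferInstance : Group σ.ker) with
    mul_comm := fun a b => Subtype.ext (Subgroup.mem_center_iff.mp (hσ.2.1 b.2) a) }
  refine ⟨σ.ker, inferInstance, ⟨Γ, inferInstance, inferInstance, σ, hσ, ⟨MulEquiv.refl _⟩⟩, fun Δ _ _ τ hτ => ?_⟩
  have hsf := fibKerFst_surjective (σ := σ) (τ := τ) hτ.1 hσ.2.2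
  obtain ⟨Γ', _, _, σ', hσ', ⟨e⟩, -⟩ := stemify (fibBase σ τ) (fibBase_surjective hσ.1 hτ.1)
    (fibBase_central hσ.2.1 hτ.2.1) (MonoidHom.id Q) isStemExtension_id (fibBase σ τ)
    (fibBase_surjective hσ.1 hτ.1) rfl
  have hle : Nat.card (fibKer σ τ) ≤ Nat.card σ.ker := by
    rw [hcard, ← Nat.card_congr e.toEquiv]
    exact Nat.le_findGreatest (hbound _ ⟨Γ', _, ‹_›, σ', hσ', rfl⟩) ⟨Γ', _, ‹_›, σ', hσ', rfl⟩
  let f := MulEquiv.ofBijective (fibKerFst σ τ) (bijective_of_surjective_card_le _ hsf hle)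
  exact ⟨(fibKerSnd σ τ).comp f.symm.toMonoidHom, (fibKerSnd_surjective hσ.1 hτ.2.2).comp f.symm.surjective⟩

end Cfsg.Agent.Stem
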