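import Mathlib
import Cfsg.Prelude.Def_KGroupFacts

/-!
# Stem extensions of groups of dihedral or quaternion shape
-/

set_option autoImplicit false

open scoped commutatorElement

universe u v

namespace Cfsg.Agent.Stem

/-- a group all of whose stem kernels vanish has trivial multiplier -/
theorem multiplier_one_of {G : Type u} [Group G] [Finite G]
    (h : ∀ (Γ : Type u) [Group Γ] [Finite Γ] (σ : Γ →* G), Cfsg.IsStemExtension σ → σ.ker = ⊥) :
    Cfsg.HasCyclicSchurMultiplier G 1 := by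
  refine ⟨⟨G, inferInstance, inferInstance, MonoidHom.id _, ⟨fun x => ⟨x, rfl⟩, ?_, ?_⟩, ?_⟩, ?_⟩
  · intro x hx
    rw [show x = 1 from hx]; exact one_mem _
  · intro x hx
    rw [show x = 1 from hx]; exact one_mem _
  · haveI : Subsingleton (MonoidHom.id G).ker := ⟨fun a b => Subtype.ext (by
      rw [show (a : G) = 1 from a.2, show (b : G) = 1 from b.2])⟩
    haveI : Subsingleton (Multiplicative (ZMod 1)) := inferInstanceAs (Subsingleton (ZMod 1))
    haveI : Unique (MonoidHom.id G).ker := uniqueOfSubsingleton 1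
    haveI : Unique (Multiplicative (ZMod 1)) := uniqueOfSubsingleton 1
    exact ⟨MulEquiv.ofUnique⟩
  · intro Γ _ _ σ hσ
    refine ⟨1, fun y => ⟨1, Subtype.ext ?_⟩⟩
    have this : (y : Γ) ∈ (⊥ : Subgroup Γ) := (h Γ σ hσ).le y.2
    rw [Subgroup.mem_bot] at this
    rw [this]; rfl

theorem stem_ker_inf_dihedral_like {G : Type v} [Group G] (a x : G) (n : ℕ)
    (hgen : ∀ g : G, ∃ i : ℤ, g = a ^ i ∨ g = x * a ^ i) (hconj : x * a * x⁻¹ = a⁻¹)
    (hn : ∃ j : ℤ, a ^ n = x ^ j) (hord : ∀ k : ℤ, a ^ (2 * k) = 1 → (n : ℤ) ∣ k)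
    {Γ : Type u} [Group Γ] (σ : Γ →* G) (hs : Function.Surjective σ) (hc : σ.ker ≤ Subgroup.center Γ) :
    σ.ker ⊓ commutator Γ = ⊥ := by
  obtain ⟨A, hA⟩ := hs a
  obtain ⟨X, hX⟩ := hs x
  have cz : ∀ {z : Γ}, σ z = 1 → ∀ g, g * z = z * g := fun hz g =>
    Subgroup.mem_center_iff.mp (hc (MonoidHom.mem_ker.mpr hz)) g
  set z := X * A * X⁻¹ * A with hzdef
  have hz : σ z = 1 := by rw [hzdef]; simp only [map_mul, map_inv, hA, hX]; rw [hconj, inv_mul_cancel]
  have hXA : X * A * X⁻¹ = z * A⁻¹ := by rw [hzdef, mul_inv_cancel_right]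
  set w := z * A⁻¹ * A⁻¹ with hw
  have hzA : Commute z A := (cz hz A).symm
  have hwpow : ∀ k : ℤ, w ^ k = z ^ k * A ^ (-2 * k) := fun k => by
    rw [hw, mul_assoc, show A⁻¹ * A⁻¹ = A ^ (-2 : ℤ) by group, (hzA.zpow_right (-2)).mul_zpow, ← zpow_mul]
  have hXAn : ∀ k : ℤ, X * A ^ k * X⁻¹ = z ^ k * A ^ (-k) := fun k => by
    rw [← conj_zpow, hXA, hzA.inv_right.mul_zpow, inv_zpow, ← zpow_neg]
  have hwn : w ^ (n : ℤ) = 1 := by
    obtain ⟨j, hj⟩ := hn
    have hk : σ (A ^ (n : ℤ) * (X ^ j)⁻¹) = 1 := by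
      rw [map_mul, map_inv, map_zpow, map_zpow, hA, hX, zpow_natCast, hj, mul_inv_cancel]
    have hcomm : X * A ^ (n : ℤ) * X⁻¹ = A ^ (n : ℤ) := by
      calc X * A ^ (n : ℤ) * X⁻¹ = (X * (A ^ (n : ℤ) * (X ^ j)⁻¹)) * X ^ j * X⁻¹ := by group
        _ = (A ^ (n : ℤ) * (X ^ j)⁻¹) * X * X ^ j * X⁻¹ := by rw [cz hk X]
        _ = _ := by group
    rw [hXAn] at hcomm
    rw [hwpow, show A ^ (-2 * (n : ℤ)) = A ^ (-(n : ℤ)) * (A ^ (n : ℤ))⁻¹ by group, ← mul_assoc, hcomm,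
      mul_inv_cancel]
  set N := Subgroup.zpowers w with hN
  have hXw : X * w * X⁻¹ = w⁻¹ := by
    rw [hw]
    calc X * (z * A⁻¹ * A⁻¹) * X⁻¹ = (X * z) * A⁻¹ * A⁻¹ * X⁻¹ := by group
      _ = z * (X * A * X⁻¹)⁻¹ * (X * A * X⁻¹)⁻¹ := by rw [cz hz X]; group
      _ = z * (A * z⁻¹) * (A * z⁻¹) := by rw [hXA]; group
      _ = z * (z⁻¹ * A) * (A * z⁻¹) := by rw [(hzA.inv_left).eq]
      _ = _ := by simp [mul_assoc]
  have hAw : A * w * A⁻¹ = w := by
    rw [hw]
    calc A * (z * A⁻¹ * A⁻¹) * A⁻¹ = (A * z) * A⁻¹ * A⁻¹ * A⁻¹ := by group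
      _ = _ := by rw [← hzA.eq]; group
  have hform : ∀ g : Γ, ∃ (i : ℤ) (c : Γ), σ c = 1 ∧ (g = A ^ i * c ∨ g = X * A ^ i * c) := by
    intro g
    obtain ⟨i, h | h⟩ := hgen (σ g)
    · refine ⟨i, (A ^ i)⁻¹ * g, ?_, Or.inl (by group)⟩
      rw [map_mul, map_inv, map_zpow, hA, h, inv_mul_cancel]
    · refine ⟨i, (X * A ^ i)⁻¹ * g, ?_, Or.inr (by group)⟩
      rw [map_mul, map_inv, map_mul, map_zpow, hA, hX, h, inv_mul_cancel]
  haveI hNn : N.Normal := by
    refine ⟨fun y hy g => ?_⟩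
    obtain ⟨k, rfl⟩ := Subgroup.mem_zpowers_iff.mp hy
    rw [← conj_zpow]
    refine Subgroup.zpow_mem _ ?_ k
    obtain ⟨i, c, hc', rfl | rfl⟩ := hform g
    · have e : A ^ i * c * w * (A ^ i * c)⁻¹ = A ^ i * w * (A ^ i)⁻¹ := by
        calc A ^ i * c * w * (A ^ i * c)⁻¹ = A ^ i * (c * w) * c⁻¹ * (A ^ i)⁻¹ := by group
          _ = _ := by rw [← cz hc' w]; group
      rw [e, (show Commute (A ^ i) w from (show Commute A w from mul_inv_eq_iff_eq_mul.mp hAw).zpow_left i).eq,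
        mul_inv_cancel_right]
      exact Subgroup.mem_zpowers w
    · have e : X * A ^ i * c * w * (X * A ^ i * c)⁻¹ = X * (A ^ i * w * (A ^ i)⁻¹) * X⁻¹ := by
        calc X * A ^ i * c * w * (X * A ^ i * c)⁻¹ = X * A ^ i * (c * w) * c⁻¹ * (X * A ^ i)⁻¹ := by group
          _ = _ := by rw [← cz hc' w]; group
      rw [e, (show Commute (A ^ i) w from (show Commute A w from mul_inv_eq_iff_eq_mul.mp hAw).zpow_left i).eq,
        mul_inv_cancel_right, hXw]
      exact inv_mem (Subgroup.mem_zpowers w)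
  let q := QuotientGroup.mk' N
  have hXAq : Commute (q X) (q A) := by
    show q X * q A = q A * q X
    rw [← map_mul, ← map_mul]
    refine QuotientGroup.eq.mpr ?_

    have e2 : (X * A)⁻¹ * (A * X) = A⁻¹ * X⁻¹ * w⁻¹ * X * A := by
      rw [hw, ← hXA]; group
    rw [e2]
    have := hNn.conj_mem _ (inv_mem (Subgroup.mem_zpowers w)) (A⁻¹ * X⁻¹)
    convert this using 1
    group
  have hqc : ∀ c, σ c = 1 → ∀ g, Commute (q c) (q g) := fun c hc' g => by
    show q c * q g = q g * q c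
    rw [← map_mul, ← map_mul, cz hc' g]
  have hqall : ∀ g h : Γ, q g * q h = q h * q g := by
    have hAall : ∀ g, Commute (q A) (q g) := by
      intro g
      obtain ⟨i, c, hc', rfl | rfl⟩ := hform g
      · rw [map_mul, map_zpow]; exact ((Commute.refl _).zpow_right i).mul_right (hqc c hc' A).symm
      · rw [map_mul, map_mul, map_zpow]
        exact (hXAq.symm.mul_right ((Commute.refl _).zpow_right i)).mul_right (hqc c hc' A).symm
    have hXall : ∀ g, Commute (q X) (q g) := by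
      intro g
      obtain ⟨i, c, hc', rfl | rfl⟩ := hform g
      · rw [map_mul, map_zpow]; exact (hXAq.zpow_right i).mul_right (hqc c hc' X).symm
      · rw [map_mul, map_mul, map_zpow]
        exact ((Commute.refl _).mul_right (hXAq.zpow_right i)).mul_right (hqc c hc' X).symm
    intro g h
    obtain ⟨i, c, hc', rfl | rfl⟩ := hform g
    · rw [map_mul, map_zpow]; exact ((hAall h).zpow_left i).mul_left (hqc c hc' h)
    · rw [map_mul, map_mul, map_zpow]
      exact (((hXall h).mul_left ((hAall h).zpow_left i))).mul_left (hqc c hc' h)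
  have hle : commutator Γ ≤ N := by
    rw [commutator_def, Subgroup.commutator_le]
    intro g _ h _
    have : q ⁅g, h⁆ = 1 := by rw [map_commutatorElement]; exact commutatorElement_eq_one_iff_mul_comm.mpr (hqall g h)
    exact (QuotientGroup.eq_one_iff _).mp this
  rw [Subgroup.eq_bot_iff_forall]
  rintro y ⟨hy, hyd⟩
  obtain ⟨k, rfl⟩ := Subgroup.mem_zpowers_iff.mp (hle hyd)
  have h1 : a ^ (2 * k) = 1 := by
    have h := MonoidHom.mem_ker.mp hy
    rw [hwpow, map_mul, map_zpow, map_zpow, hz, hA, one_zpow, one_mul, show -2 * k = -(2 * k) by ring,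
      zpow_neg, inv_eq_one] at h
    exact h
  obtain ⟨c, rfl⟩ := hord k h1
  rw [zpow_mul, hwn, one_zpow]

theorem stem_ker_dihedral_like {G : Type v} [Group G] (a x : G) (n : ℕ)
    (hgen : ∀ g : G, ∃ i : ℤ, g = a ^ i ∨ g = x * a ^ i) (hconj : x * a * x⁻¹ = a⁻¹)
    (hn : ∃ j : ℤ, a ^ n = x ^ j) (hord : ∀ k : ℤ, a ^ (2 * k) = 1 → (n : ℤ) ∣ k)
    {Γ : Type u} [Group Γ] (σ : Γ →* G) (hσ : Cfsg.IsStemExtension σ) : σ.ker = ⊥ := by
  rw [← stem_ker_inf_dihedral_like a x n hgen hconj hn hord σ hσ.1 hσ.2.1]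
  exact (inf_eq_left.mpr hσ.2.2).symm

end Cfsg.Agent.Stem
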