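import Mathlib
import Cfsg.Prelude.Def_KGroupFacts
import Cfsg.Agent.Lib.Stem.DihedralLike
import Cfsg.Agent.Lib.SzC.StemReduce

/-!
# Trivial multiplier from the Sylow subgroups
-/

set_option autoImplicit false

open scoped commutatorElement

universe u v

namespace Cfsg.Agent.Stem

/-- every central extension meets the derived subgroup trivially in its kernel -/
def NoCentralExt (R : Type v) [Group R] : Prop :=
  ∀ (P : Type u) [Group P] [Finite P] (τ : P →* R), Function.Surjective τ → τ.ker ≤ Subgroup.center P →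
    ∀ z ∈ τ.ker, z ∈ commutator P → z = 1

theorem noCentralExt_of_comm {R : Type v} [Group R]
    (h : ∀ (P : Type u) [Group P] [Finite P] (τ : P →* R), Function.Surjective τ → τ.ker ≤ Subgroup.center P →
      ∀ a b : P, a * b = b * a) : NoCentralExt.{u} R := by
  intro P _ _ τ hs hc z _ hz
  have : commutator P = ⊥ := by
    rw [eq_bot_iff, commutator_def, Subgroup.commutator_le]
    intro a _ b _
    rw [Subgroup.mem_bot, commutatorElement_eq_one_iff_mul_comm]
    exact h P τ hs hc a b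
  rwa [this, Subgroup.mem_bot] at hz

theorem noCentralExt_cyclic {R : Type v} [Group R] [IsCyclic R] : NoCentralExt.{u} R :=
  noCentralExt_of_comm fun _ _ _ τ _ hc a b => commutative_of_cyclic_center_quotient τ hc a b

theorem noCentralExt_of_equiv {R : Type v} {S : Type*} [Group R] [Group S] (e : R ≃* S)
    (h : NoCentralExt.{u} S) : NoCentralExt.{u} R := by
  intro P _ _ τ hs hc z hz hzc
  refine h P (e.toMonoidHom.comp τ) (e.surjective.comp hs) ?_ z ?_ hzc
  · intro x hx
    exact hc (MonoidHom.mem_ker.mpr (e.injective (by rw [map_one]; exact MonoidHom.mem_ker.mp hx)))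
  · rw [MonoidHom.mem_ker, MonoidHom.comp_apply, MonoidHom.mem_ker.mp hz, map_one]

theorem noCentralExt_dihedral_like {R : Type v} [Group R] (a x : R) (n : ℕ)
    (hgen : ∀ g : R, ∃ i : ℤ, g = a ^ i ∨ g = x * a ^ i) (hconj : x * a * x⁻¹ = a⁻¹)
    (hn : ∃ j : ℤ, a ^ n = x ^ j) (hord : ∀ k : ℤ, a ^ (2 * k) = 1 → (n : ℤ) ∣ k) : NoCentralExt.{u} R := by
  intro P _ _ τ hs hc z hz hzc
  -- divide out to obtain a stem extension
  have h := stem_ker_inf_dihedral_like a x n hgen hconj hn hord τ hs hc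
  have : z ∈ (⊥ : Subgroup P) := h.le ⟨hz, hzc⟩
  exact Subgroup.mem_bot.mp this

/-- the preimage of a subgroup in a central extension meets the kernel trivially in its derived subgroup -/
def KillsIn {G : Type u} [Group G] (R : Subgroup G) : Prop :=
  ∀ (Γ : Type u) [Group Γ] [Finite Γ] (σ : Γ →* G), Function.Surjective σ → σ.ker ≤ Subgroup.center Γ →
    ∀ a : R.comap σ, σ a = 1 → a ∈ commutator (R.comap σ) → a = 1

theorem killsIn_of_noCentralExt {G : Type u} [Group G] {R : Subgroup G} (h : NoCentralExt.{u} R) : KillsIn R := by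
  intro Γ _ _ σ hs hc a ha hac
  let τ : R.comap σ →* R := (σ.comp (R.comap σ).subtype).codRestrict _ (fun x => x.2)
  exact h (R.comap σ) τ (fun r => by
      obtain ⟨x, hx⟩ := hs (r : G)
      exact ⟨⟨x, by show σ x ∈ R; rw [hx]; exact r.2⟩, Subtype.ext hx⟩)
    (fun x hx => Subgroup.mem_center_iff.mpr fun y => Subtype.ext (Subgroup.mem_center_iff.mp
      (hc (MonoidHom.mem_ker.mpr (congrArg Subtype.val (MonoidHom.mem_ker.mp hx)))) y))
    a (MonoidHom.mem_ker.mpr (Subtype.ext ha)) hac

theorem killsIn_of_comm {G : Type u} [Group G] {R : Subgroup G}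
    (h : ∀ (Γ : Type u) [Group Γ] [Finite Γ] (σ : Γ →* G), Function.Surjective σ → σ.ker ≤ Subgroup.center Γ →
      ∀ a b : Γ, σ a ∈ R → σ b ∈ R → a * b = b * a) : KillsIn R := by
  intro Γ _ _ σ hs hc a _ hac
  have : commutator (R.comap σ) = ⊥ := by
    rw [eq_bot_iff, commutator_def, Subgroup.commutator_le]
    intro x _ y _
    rw [Subgroup.mem_bot, commutatorElement_eq_one_iff_mul_comm]
    exact Subtype.ext (h Γ σ hs hc x y x.2 y.2)
  rwa [this, Subgroup.mem_bot] at hac

/-- the criterion -/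
theorem multiplier_one_of_sylow_kills {G : Type u} [Group G] [Finite G]
    (h : ∀ (p : ℕ) [Fact p.Prime], ∃ R : Sylow p G, KillsIn (R : Subgroup G)) :
    Cfsg.HasCyclicSchurMultiplier G 1 := by
  refine multiplier_one_of fun Γ _ _ σ hσ => ?_
  obtain ⟨hs, hc, hd⟩ := hσ
  by_contra hne
  have hcard : Nat.card σ.ker ≠ 1 := fun e => hne (Subgroup.card_eq_one.mp e)
  obtain ⟨p, hp, hpd⟩ := Nat.exists_prime_and_dvd hcard
  haveI := Fact.mk hp
  obtain ⟨⟨z, hz⟩, hzo⟩ := exists_prime_orderOf_dvd_card' (G := σ.ker) p hpd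
  obtain ⟨R, hR⟩ := h p
  set P : Subgroup Γ := (R : Subgroup G).comap σ with hP
  have hzP : z ∈ P := by
    show σ z ∈ (R : Subgroup G)
    rw [MonoidHom.mem_ker.mp hz]; exact one_mem _
  have hzp : z ^ p = 1 := by
    have := pow_orderOf_eq_one (⟨z, hz⟩ : σ.ker)
    rw [hzo] at this
    exact congrArg Subtype.val this
  have hk := Cfsg.Agent.SzC.transfer_kill P (Abelianization.of (G := P)) (hc hz) (hd hz) hzP hzp hp (by
    rw [hP, Subgroup.index_comap_of_surjective _ hs]; exact R.not_dvd_index)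
  have hzc : (⟨z, hzP⟩ : P) ∈ commutator P := by
    rw [← Abelianization.ker_of]; exact hk
  have h1 := hR Γ σ hs hc ⟨z, hzP⟩ (MonoidHom.mem_ker.mp hz) hzc
  rw [show (⟨z, hz⟩ : σ.ker) = 1 from Subtype.ext (congrArg Subtype.val h1 :), orderOf_one] at hzo
  exact hp.one_lt.ne hzo

theorem multiplier_one_of_sylow {G : Type u} [Group G] [Finite G]
    (h : ∀ (p : ℕ) [Fact p.Prime], ∃ R : Sylow p G, NoCentralExt.{u} (R : Subgroup G)) :
    Cfsg.HasCyclicSchurMultiplier G 1 :=
  multiplier_one_of_sylow_kills fun p _ => (h p).imp fun _ hR => killsIn_of_noCentralExt hR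

end Cfsg.Agent.Stem
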