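import Mathlib
import Cfsg.Prelude.Def_KGroupFacts
import Cfsg.Agent.Lib.Stem.Cover

/-!
# Covers of perfect groups
-/

set_option autoImplicit false

open scoped commutatorElement

universe u v w

namespace Cfsg.Agent.Stem

/-- a central element modulo a central subgroup is central in a perfect group -/
theorem center_of_perfect {P : Type u} [Group P] (hP : commutator P = ⊤) {x : P}
    (h : ∀ g, ⁅x, g⁆ ∈ Subgroup.center P) : x ∈ Subgroup.center P := by
  let f : P →* Subgroup.center P :=
    { toFun := fun g => ⟨⁅x, g⁆, h g⟩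
      map_one' := Subtype.ext (by simp)
      map_mul' := fun a b => Subtype.ext (by
        show ⁅x, a * b⁆ = ⁅x, a⁆ * ⁅x, b⁆
        have := Subgroup.mem_center_iff.mp (h b) a
        calc ⁅x, a * b⁆ = ⁅x, a⁆ * (a * ⁅x, b⁆) * a⁻¹ := by rw [commutatorElement_def, commutatorElement_def, commutatorElement_def]; group
          _ = _ := by rw [this]; group) }
  letI : CommGroup (Subgroup.center P) := { (inferInstance : Group (Subgroup.center P)) with
    mul_comm := fun a b => Subtype.ext (Subgroup.mem_center_iff.mp b.2 a) }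
  refine Subgroup.mem_center_iff.mpr fun g => ?_
  have hg : g ∈ f.ker := Abelianization.commutator_subset_ker f (hP ▸ Subgroup.mem_top g)
  have : ⁅x, g⁆ = 1 := congrArg Subtype.val (MonoidHom.mem_ker.mp hg)
  exact (commutatorElement_eq_one_iff_mul_comm.mp this).symm

/-- stem extensions of perfect groups are perfect -/
theorem perfect_of_stem {Γ : Type u} {Q : Type v} [Group Γ] [Group Q] {σ : Γ →* Q}
    (hσ : Cfsg.IsStemExtension σ) (hQ : commutator Q = ⊤) : commutator Γ = ⊤ := by
  rw [eq_top_iff]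
  intro x _
  have : σ x ∈ (commutator Γ).map σ := by rw [map_commutator_surj σ hσ.1, hQ]; trivial
  obtain ⟨c, hc, hce⟩ := this
  have h2 : c⁻¹ * x ∈ commutator Γ := hσ.2.2 (by rw [MonoidHom.mem_ker, map_mul, map_inv, hce, inv_mul_cancel])
  simpa using mul_mem hc h2

/-- the derived subgroup of a central extension of a finite group is finite -/
theorem finite_commutator_of_central {E : Type u} {Q : Type v} [Group E] [Group Q] [Finite Q] (σ : E →* Q)
    (hc : σ.ker ≤ Subgroup.center E) : Finite (commutator E) := by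
  classical
  haveI : Nonempty E := ⟨1⟩
  let s : Q → E := Function.invFun σ
  have cz : ∀ {z : E}, σ z = 1 → ∀ g, g * z = z * g := fun hz g =>
    Subgroup.mem_center_iff.mp (hc (MonoidHom.mem_ker.mpr hz)) g
  have hs : ∀ e, σ (s (σ e)) = σ e := fun e => Function.invFun_eq ⟨e, rfl⟩
  haveI : Finite (commutatorSet E) := by
    refine Finite.of_surjective (fun x : Q × Q => (⟨⁅s x.1, s x.2⁆, ⟨_, _, rfl⟩⟩ : commutatorSet E)) ?_
    rintro ⟨_, a, b, rfl⟩
    refine ⟨(σ a, σ b), Subtype.ext ?_⟩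
    have key : ∀ (x y z : E), σ z = 1 → ⁅x * z, y⁆ = ⁅x, y⁆ := fun x y z hz => by
      rw [commutatorElement_def, commutatorElement_def]
      calc x * z * y * (x * z)⁻¹ * y⁻¹ = x * (z * y) * z⁻¹ * x⁻¹ * y⁻¹ := by group
        _ = _ := by rw [← cz hz y]; group
    have key2 : ∀ (x y z : E), σ z = 1 → ⁅x, y * z⁆ = ⁅x, y⁆ := fun x y z hz => by
      rw [← commutatorElement_inv, key y x z hz, commutatorElement_inv]
    show ⁅s (σ a), s (σ b)⁆ = ⁅a, b⁆
    calc ⁅s (σ a), s (σ b)⁆ = ⁅a * (a⁻¹ * s (σ a)), b * (b⁻¹ * s (σ b))⁆ := by simp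
      _ = _ := by rw [key _ _ _ (by simp [hs]), key2 _ _ _ (by simp [hs])]
  exact inferInstance

/-- the derived part of a central extension of a perfect group is a perfect stem extension -/
theorem derived_stem {E : Type u} {Q : Type v} [Group E] [Group Q] (σ : E →* Q) (hs : Function.Surjective σ)
    (hc : σ.ker ≤ Subgroup.center E) (hQ : commutator Q = ⊤) :
    Cfsg.IsStemExtension (σ.comp (commutator E).subtype) ∧ commutator (commutator E) = ⊤ := by
  have hsurj : ∀ q, ∃ d ∈ commutator E, σ d = q := fun q => by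
    have : q ∈ (commutator E).map σ := by rw [map_commutator_surj σ hs, hQ]; trivial
    exact this
  have hperf : commutator (commutator E) = ⊤ := by
    rw [eq_top_iff]
    rintro ⟨x, hx⟩ -
    suffices x ∈ (commutator (commutator E)).map (commutator E).subtype by
      obtain ⟨y, hy, hye⟩ := this
      rwa [show (⟨x, hx⟩ : commutator E) = y from Subtype.ext hye.symm]
    refine (show commutator E ≤ _ from ?_) hx
    refine Subgroup.commutator_le.mpr fun a _ b _ => ?_
    obtain ⟨a', ha', hae⟩ := hsurj (σ a)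
    obtain ⟨b', hb', hbe⟩ := hsurj (σ b)
    refine ⟨⁅(⟨a', ha'⟩ : commutator E), (⟨b', hb'⟩ : commutator E)⁆, Subgroup.commutator_mem_commutator (Subgroup.mem_top _) (Subgroup.mem_top _), ?_⟩
    show ⁅a', b'⁆ = ⁅a, b⁆
    have c₁ := Subgroup.mem_center_iff.mp (hc (show σ (a⁻¹ * a') = 1 by simp [hae]))
    have c₂ := Subgroup.mem_center_iff.mp (hc (show σ (b⁻¹ * b') = 1 by simp [hbe]))
    rw [show a' = a * (a⁻¹ * a') by group, show b' = b * (b⁻¹ * b') by group]
    generalize a⁻¹ * a' = z₁ at *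
    generalize b⁻¹ * b' = z₂ at *
    rw [commutatorElement_def, commutatorElement_def]
    calc a * z₁ * (b * z₂) * (a * z₁)⁻¹ * (b * z₂)⁻¹
        = a * (z₁ * (b * z₂)) * z₁⁻¹ * a⁻¹ * z₂⁻¹ * b⁻¹ := by group
      _ = a * b * (z₂ * a⁻¹) * z₂⁻¹ * b⁻¹ := by rw [← c₁]; group
      _ = a * b * a⁻¹ * b⁻¹ := by rw [← c₂]; group
  refine ⟨⟨fun q => ?_, fun x hx => ?_, fun x _ => ?_⟩, hperf⟩
  · obtain ⟨d, hd, hde⟩ := hsurj q
    exact ⟨⟨d, hd⟩, hde⟩
  · exact Subgroup.mem_center_iff.mpr fun y => Subtype.ext (Subgroup.mem_center_iff.mp (hc hx) _)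
  · rw [hperf]; trivial

/-- two maps over the base out of a perfect group agree -/
theorem lift_unique {G : Type u} {X : Type v} {Q : Type w} [Group G] [Group X] [Group Q] (hG : commutator G = ⊤)
    {ξ : X →* Q} (hξ : ξ.ker ≤ Subgroup.center X) (η η' : G →* X) (h : ξ.comp η = ξ.comp η') : η = η' := by
  refine MonoidHom.eq_of_eqOn_top fun g _ => ?_
  have hle : commutator G ≤ η.eqLocus η' := by
    rw [commutator_def, Subgroup.commutator_le]
    intro a _ b _
    show η ⁅a, b⁆ = η' ⁅a, b⁆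
    have c₁ := Subgroup.mem_center_iff.mp (hξ (show ξ ((η a)⁻¹ * η' a) = 1 by
      rw [map_mul, map_inv, show ξ (η a) = ξ (η' a) from DFunLike.congr_fun h a, inv_mul_cancel]))
    have c₂ := Subgroup.mem_center_iff.mp (hξ (show ξ ((η b)⁻¹ * η' b) = 1 by
      rw [map_mul, map_inv, show ξ (η b) = ξ (η' b) from DFunLike.congr_fun h b, inv_mul_cancel]))
    rw [map_commutatorElement, map_commutatorElement, show η' a = η a * ((η a)⁻¹ * η' a) by group,
      show η' b = η b * ((η b)⁻¹ * η' b) by group]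
    generalize (η a)⁻¹ * η' a = z₁ at *
    generalize (η b)⁻¹ * η' b = z₂ at *
    generalize η a = a at *
    generalize η b = b at *
    rw [commutatorElement_def, commutatorElement_def]
    symm
    calc a * z₁ * (b * z₂) * (a * z₁)⁻¹ * (b * z₂)⁻¹
        = a * (z₁ * (b * z₂)) * z₁⁻¹ * a⁻¹ * z₂⁻¹ * b⁻¹ := by group
      _ = a * b * (z₂ * a⁻¹) * z₂⁻¹ * b⁻¹ := by rw [← c₁]; group
      _ = a * b * a⁻¹ * b⁻¹ := by rw [← c₂]; group
  exact hle (hG ▸ Subgroup.mem_top g)

/-- **universal property**: a cover of a perfect group maps to every central extension -/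
theorem exists_lift_of_cover {Q : Type u} [Group Q] [Finite Q] (hQ : commutator Q = ⊤) {A : Type v} [CommGroup A]
    (hA : Cfsg.HasSchurMultiplier Q A) {Γ : Type w} [Group Γ] [Finite Γ] {σ : Γ →* Q}
    (hσ : Cfsg.IsStemExtension σ) (hk : Nat.card σ.ker = Nat.card A)
    {X : Type*} [Group X] (ξ : X →* Q) (hξ : Function.Surjective ξ) (hξc : ξ.ker ≤ Subgroup.center X) :
    ∃ η : Γ →* X, ξ.comp η = σ := by
  obtain ⟨hD, -⟩ := derived_stem ξ hξ hξc hQ
  haveI := finite_commutator_of_central ξ hξc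
  set τ := ξ.comp (commutator X).subtype
  obtain ⟨-, hinj⟩ := fibFst_injOn_commutator hA hσ hk (τ := τ) hD.1 hD.2.1
  let f : commutator (fib σ τ) →* Γ := (fibFst σ τ).comp (Subgroup.subtype _)
  have hf : Function.Bijective f := by
    refine ⟨(injective_iff_map_eq_one f).mpr fun x hx => Subtype.ext (hinj x x.2 hx), fun g => ?_⟩
    have : g ∈ (commutator (fib σ τ)).map (fibFst σ τ) := by
      rw [map_commutator_surj _ (fibFst_surjective hD.1), perfect_of_stem hσ hQ]; trivial
    obtain ⟨x, hx, hxg⟩ := this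
    exact ⟨⟨x, hx⟩, hxg⟩
  let e := MulEquiv.ofBijective f hf
  refine ⟨(commutator X).subtype.comp ((fibSnd σ τ).comp ((Subgroup.subtype _).comp e.symm.toMonoidHom)), ?_⟩
  ext g
  show τ (fibSnd σ τ (e.symm g : fib σ τ)) = σ g
  rw [← fibBase_eq]
  show σ (f (e.symm g)) = σ g
  rw [show f (e.symm g) = e (e.symm g) from rfl, e.apply_symm_apply]

end Cfsg.Agent.Stem
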