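import Mathlib
import Cfsg.Prelude.Def_KGroupFacts
import Cfsg.Agent.Lib.Stem.Cover
import Cfsg.Agent.Lib.Stem.Bilinear

/-!
# The multiplier of a direct product
-/

set_option autoImplicit false

open scoped commutatorElement TensorProduct

universe u v w

namespace Cfsg.Agent.Stem

/-- homomorphisms respect derived subgroups -/
theorem mem_commutator_map {M N : Type*} [Group M] [Group N] (i : M →* N) {x : M} (hx : x ∈ commutator M) :
    i x ∈ commutator N := by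
  have : i x ∈ (commutator M).map i := ⟨x, hx, rfl⟩
  rw [commutator_def, Subgroup.map_commutator] at this
  exact Subgroup.commutator_mono le_top le_top this

/-- commutation between the two preimages, as a pairing of the abelianizations -/
theorem exists_pairing {Δ : Type u} [Group Δ] {Q₁ : Type v} {Q₂ : Type w} [Group Q₁] [Group Q₂]
    (τ : Δ →* Q₁ × Q₂) (hτs : Function.Surjective τ) (hτc : τ.ker ≤ Subgroup.center Δ)
    (K : Type u) [CommGroup K] (ι : K →* Δ) (hι : Function.Injective ι)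
    (hK : ∀ z, τ z = 1 → z ∈ ι.range) :
    ∃ φ : Additive (Abelianization Q₁) ⊗[ℤ] Additive (Abelianization Q₂) →+ Additive K,
      ∀ x y : Δ, (τ x).2 = 1 → (τ y).1 = 1 →
        ι (Additive.toMul (φ (Additive.ofMul (Abelianization.of (τ x).1) ⊗ₜ[ℤ] Additive.ofMul (Abelianization.of (τ y).2)))) = ⁅x, y⁆ := by
  classical
  have cz : ∀ {z : Δ}, τ z = 1 → ∀ g, g * z = z * g := fun hz g =>
    Subgroup.mem_center_iff.mp (hτc (MonoidHom.mem_ker.mpr hz)) g
  choose L hL using hτs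
  set L₁ : Q₁ → Δ := fun q => L (q, 1) with hL₁
  set L₂ : Q₂ → Δ := fun q => L (1, q) with hL₂
  have key : ∀ (p q z : Δ), τ z = 1 → ⁅p * z, q⁆ = ⁅p, q⁆ := fun p q z hz => by
    rw [commutatorElement_def, commutatorElement_def]
    calc p * z * q * (p * z)⁻¹ * q⁻¹ = p * (z * q) * z⁻¹ * p⁻¹ * q⁻¹ := by group
      _ = _ := by rw [← cz hz q]; group
  have key2 : ∀ (p q z : Δ), τ z = 1 → ⁅p, q * z⁆ = ⁅p, q⁆ := fun p q z hz => by
    rw [← commutatorElement_inv, key q p z hz, commutatorElement_inv]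
  have hwd : ∀ x y : Δ, (τ x).2 = 1 → (τ y).1 = 1 → ⁅x, y⁆ = ⁅L₁ (τ x).1, L₂ (τ y).2⁆ := by
    intro x y hx hy
    have e1 : τ x = ((τ x).1, 1) := Prod.ext rfl hx
    have e2 : τ y = (1, (τ y).2) := Prod.ext hy rfl
    have h1 : τ ((L₁ (τ x).1)⁻¹ * x) = 1 := by rw [map_mul, map_inv, hL₁, hL, ← e1, inv_mul_cancel]
    have h2 : τ ((L₂ (τ y).2)⁻¹ * y) = 1 := by rw [map_mul, map_inv, hL₂, hL, ← e2, inv_mul_cancel]
    calc ⁅x, y⁆ = ⁅L₁ (τ x).1 * ((L₁ (τ x).1)⁻¹ * x), L₂ (τ y).2 * ((L₂ (τ y).2)⁻¹ * y)⁆ := by simp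
      _ = _ := by rw [key _ _ _ h1, key2 _ _ _ h2]
  have hker : ∀ a b, τ ⁅L₁ a, L₂ b⁆ = 1 := fun a b => by
    rw [map_commutatorElement, commutatorElement_eq_one_iff_mul_comm, hL₁, hL₂, hL, hL]
    simp
  choose f hf using fun (a : Q₁) (b : Q₂) => hK _ (hker a b)
  have hfl : ∀ a a' b, f (a * a') b = f a b * f a' b := by
    intro a a' b
    apply hι
    rw [map_mul, hf, hf, hf]
    have := hwd (L₁ a * L₁ a') (L₂ b) (by simp [hL₁, hL]) (by simp [hL₂, hL])
    simp only [map_mul, hL₁, hL₂, hL, Prod.fst_mul] at this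
    rw [← this]
    calc ⁅L₁ a * L₁ a', L₂ b⁆ = L₁ a * ⁅L₁ a', L₂ b⁆ * (L₁ a)⁻¹ * ⁅L₁ a, L₂ b⁆ := by
          rw [commutatorElement_def, commutatorElement_def, commutatorElement_def]; group
      _ = ⁅L₁ a', L₂ b⁆ * ⁅L₁ a, L₂ b⁆ := by rw [cz (hker a' b) (L₁ a)]; group
      _ = _ := cz (hker a b) _
  have hfr : ∀ a b b', f a (b * b') = f a b * f a b' := by
    intro a b b'
    apply hι
    rw [map_mul, hf, hf, hf]
    have := hwd (L₁ a) (L₂ b * L₂ b') (by simp [hL₁, hL]) (by simp [hL₂, hL])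
    simp only [map_mul, hL₁, hL₂, hL, Prod.snd_mul] at this
    rw [← this]
    calc ⁅L₁ a, L₂ b * L₂ b'⁆ = ⁅L₁ a, L₂ b⁆ * (L₂ b * ⁅L₁ a, L₂ b'⁆ * (L₂ b)⁻¹) := by
          rw [commutatorElement_def, commutatorElement_def, commutatorElement_def]; group
      _ = _ := by rw [cz (hker a b') (L₂ b)]; group
  let g : Q₁ → (Abelianization Q₂ →* K) := fun a => Abelianization.lift (MonoidHom.mk' (f a) (hfr a))
  let G₁ : Abelianization Q₁ →* (Abelianization Q₂ →* K) := Abelianization.lift (MonoidHom.mk' g (fun a a' => by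
    refine MonoidHom.ext fun b => ?_
    obtain ⟨b, rfl⟩ := QuotientGroup.mk'_surjective (commutator Q₂) b
    exact hfl a a' b))
  let F : Additive (Abelianization Q₁) →+ (Additive (Abelianization Q₂) →+ Additive K) :=
    { toFun := fun a => MonoidHom.toAdditive (G₁ (Additive.toMul a))
      map_zero' := by ext b; simp
      map_add' := fun a a' => by ext b; simp }
  refine ⟨TensorProduct.liftAddHom F (fun r a b => by rw [map_zsmul, map_zsmul, AddMonoidHom.zsmul_apply]), fun x y hx hy => ?_⟩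
  rw [TensorProduct.liftAddHom_tmul]
  show ι (f (τ x).1 (τ y).2) = _
  rw [hf, hwd x y hx hy]

section
variable {Q₁ : Type u} {Q₂ : Type v} [Group Q₁] [Group Q₂] [Finite Q₁] [Finite Q₂]
  {A B : Type*} [CommGroup A] [CommGroup B]

/-- **upper bound** -/
theorem product_image (hA : Cfsg.HasSchurMultiplier Q₁ A) (hB : Cfsg.HasSchurMultiplier Q₂ B)
    {Δ : Type w} [Group Δ] [Finite Δ] (τ : Δ →* Q₁ × Q₂) (hτ : Cfsg.IsStemExtension τ) :
    ∃ π : A × B × Multiplicative (Additive (Abelianization Q₁) ⊗[ℤ] Additive (Abelianization Q₂)) →* τ.ker,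
      Function.Surjective π := by
  classical
  have cz : ∀ {z : Δ}, τ z = 1 → ∀ g, g * z = z * g := fun hz g =>
    Subgroup.mem_center_iff.mp (hτ.2.1 (MonoidHom.mem_ker.mpr hz)) g
  letI : CommGroup τ.ker := { (inferInstance : Group τ.ker) with
    mul_comm := fun a b => Subtype.ext (cz b.2 a) }
  obtain ⟨φ, hφ⟩ := exists_pairing τ hτ.1 hτ.2.1 τ.ker τ.ker.subtype Subtype.val_injective
    (fun z hz => ⟨⟨z, hz⟩, rfl⟩)
  set E₁ := ((MonoidHom.snd Q₁ Q₂).comp τ).ker with hE₁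
  set E₂ := ((MonoidHom.fst Q₁ Q₂).comp τ).ker with hE₂
  let σ₁ : E₁ →* Q₁ := ((MonoidHom.fst Q₁ Q₂).comp τ).comp E₁.subtype
  let σ₂ : E₂ →* Q₂ := ((MonoidHom.snd Q₁ Q₂).comp τ).comp E₂.subtype
  have hk₁ : ∀ x : E₁, σ₁ x = 1 → τ x = 1 := fun x hx => Prod.ext hx x.2
  have hk₂ : ∀ x : E₂, σ₂ x = 1 → τ x = 1 := fun x hx => Prod.ext x.2 hx
  have hc₁ : σ₁.ker ≤ Subgroup.center E₁ := fun x hx =>
    Subgroup.mem_center_iff.mpr fun y => Subtype.ext (cz (hk₁ x hx) y)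
  have hc₂ : σ₂.ker ≤ Subgroup.center E₂ := fun x hx =>
    Subgroup.mem_center_iff.mpr fun y => Subtype.ext (cz (hk₂ x hx) y)
  obtain ⟨πA, hπA⟩ := central_kernel_image hA σ₁ (fun q => by
    obtain ⟨x, hx⟩ := hτ.1 (q, 1)
    exact ⟨⟨x, show (τ x).2 = 1 by rw [hx]⟩, show (τ x).1 = q by rw [hx]⟩) hc₁
  obtain ⟨πB, hπB⟩ := central_kernel_image hB σ₂ (fun q => by
    obtain ⟨x, hx⟩ := hτ.1 (1, q)
    exact ⟨⟨x, show (τ x).1 = 1 by rw [hx]⟩, show (τ x).2 = q by rw [hx]⟩) hc₂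
  let jA : A →* τ.ker := ((E₁.subtype.comp (σ₁.ker ⊓ commutator E₁).subtype).comp πA).codRestrict _
    fun a => hk₁ _ (πA a).2.1
  let jB : B →* τ.ker := ((E₂.subtype.comp (σ₂.ker ⊓ commutator E₂).subtype).comp πB).codRestrict _
    fun a => hk₂ _ (πB a).2.1
  let jT : Multiplicative (Additive (Abelianization Q₁) ⊗[ℤ] Additive (Abelianization Q₂)) →* τ.ker :=
    AddMonoidHom.toMultiplicativeLeft φ
  refine ⟨jA.coprod (jB.coprod jT), ?_⟩
  set C : Subgroup Δ := jT.range.map τ.ker.subtype with hC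
  set D₁ := (commutator E₁).map E₁.subtype with hD₁
  set D₂ := (commutator E₂).map E₂.subtype with hD₂
  haveI : C.Normal := ⟨fun x hx g => by
    obtain ⟨k, -, rfl⟩ := id hx
    show g * (k : Δ) * g⁻¹ ∈ C
    rw [cz k.2 g, mul_inv_cancel_right]; exact hx⟩
  have hdec : ∀ g, ∃ a b, (τ a).2 = 1 ∧ (τ b).1 = 1 ∧ g = a * b := by
    intro g
    obtain ⟨a, ha⟩ := hτ.1 ((τ g).1, 1)
    exact ⟨a, a⁻¹ * g, by rw [ha], by rw [map_mul, map_inv, ha]; simp, by group⟩
  have hN : commutator Δ ≤ D₁ ⊔ D₂ ⊔ C := by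
    rw [commutator_def, Subgroup.commutator_le]
    intro g _ h _
    obtain ⟨a, b, ha, hb, rfl⟩ := hdec g
    obtain ⟨c, d, hc, hd, rfl⟩ := hdec h
    have hbc : ∀ x y, (τ x).1 = 1 → (τ y).2 = 1 → ⁅x, y⁆ ∈ C := by
      intro x y hx hy
      rw [← commutatorElement_inv]
      refine inv_mem ⟨_, ⟨Multiplicative.ofAdd _, rfl⟩, hφ y x hy hx⟩
    let q := QuotientGroup.mk' C
    have hq : ∀ x y, (τ x).1 = 1 → (τ y).2 = 1 → Commute (q x) (q y) := fun x y hx hy => by
      rw [← commutatorElement_eq_one_iff_commute, ← map_commutatorElement]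
      exact (QuotientGroup.eq_one_iff _).mpr (hbc x y hx hy)
    have h1 : q ⁅a * b, c * d⁆ = q (⁅a, c⁆ * ⁅b, d⁆) := by
      simp only [map_mul, map_commutatorElement]
      have e1 := hq b c hb hc
      have e2 := hq d a hd ha
      have e3 := hq (b * d * b⁻¹) a (by simp [hb, hd]) ha
      have e4 := hq (b * d * b⁻¹) c (by simp [hb, hd]) hc
      simp only [map_mul, map_inv] at e3 e4
      have e5 := hq d c hd hc
      generalize q a = A at *
      generalize q b = Bq at *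
      generalize q c = Cq at *
      generalize q d = Dq at *
      rw [commutatorElement_def, commutatorElement_def, commutatorElement_def]
      calc A * Bq * (Cq * Dq) * (A * Bq)⁻¹ * (Cq * Dq)⁻¹
          = A * (Bq * Cq) * Dq * Bq⁻¹ * A⁻¹ * Dq⁻¹ * Cq⁻¹ := by group
        _ = A * Cq * (Bq * Dq * Bq⁻¹ * A⁻¹) * Dq⁻¹ * Cq⁻¹ := by rw [e1.eq]; group
        _ = A * Cq * A⁻¹ * (Bq * Dq * Bq⁻¹) * (Dq⁻¹ * Cq⁻¹) := by rw [e3.inv_right.eq]; group
        _ = A * Cq * A⁻¹ * (Bq * Dq * Bq⁻¹ * Cq⁻¹) * Dq⁻¹ := by rw [e5.inv_inv.eq]; group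
        _ = A * Cq * A⁻¹ * Cq⁻¹ * (Bq * Dq * Bq⁻¹ * Dq⁻¹) := by rw [e4.inv_right.eq]; group
    have hm : (⁅a, c⁆ * ⁅b, d⁆)⁻¹ * ⁅a * b, c * d⁆ ∈ C := by
      refine (QuotientGroup.eq_one_iff _).mp ?_
      show q _ = 1
      rw [map_mul, map_inv, h1, inv_mul_cancel]
    have m1 : ⁅a, c⁆ ∈ D₁ := ⟨⁅(⟨a, ha⟩ : E₁), (⟨c, hc⟩ : E₁)⁆,
      Subgroup.commutator_mem_commutator (Subgroup.mem_top _) (Subgroup.mem_top _), rfl⟩
    have m2 : ⁅b, d⁆ ∈ D₂ := ⟨⁅(⟨b, hb⟩ : E₂), (⟨d, hd⟩ : E₂)⁆,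
      Subgroup.commutator_mem_commutator (Subgroup.mem_top _) (Subgroup.mem_top _), rfl⟩
    have := mul_mem (mul_mem (show ⁅a, c⁆ ∈ D₁ ⊔ D₂ ⊔ C from le_sup_left (a := D₁ ⊔ D₂) (le_sup_left (b := D₂) m1))
      (show ⁅b, d⁆ ∈ D₁ ⊔ D₂ ⊔ C from le_sup_left (a := D₁ ⊔ D₂) (le_sup_right (a := D₁) m2)))
      (show _ ∈ D₁ ⊔ D₂ ⊔ C from le_sup_right (a := D₁ ⊔ D₂) hm)
    rwa [mul_inv_cancel_left] at this
  haveI : D₁.Normal := by
    haveI : E₁.Normal := MonoidHom.normal_ker _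
    exact ⟨fun x hx g => by
      obtain ⟨y, hy, rfl⟩ := hx
      refine ⟨⟨g * y * g⁻¹, Subgroup.Normal.conj_mem inferInstance _ y.2 g⟩, ?_, rfl⟩
      let c : E₁ ≃* E₁ := MulAut.conjNormal g
      have : c y ∈ (commutator E₁).map c.toMonoidHom := ⟨y, hy, rfl⟩
      rw [map_commutator_surj c.toMonoidHom c.surjective] at this
      rw [show (⟨_, _⟩ : E₁) = c y from Subtype.ext (MulAut.conjNormal_apply g y).symm]
      exact this⟩
  intro k
  obtain ⟨m, hm, t, ⟨t', ⟨s, rfl⟩, rfl⟩, hmt⟩ := Subgroup.mem_sup_of_normal_right.mp (hN (hτ.2.2 k.2))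
  obtain ⟨d₁, ⟨x, hx, rfl⟩, d₂, ⟨y, hy, rfl⟩, hd⟩ := Subgroup.mem_sup_of_normal_left.mp hm
  have hτm : τ m = 1 := by
    have := congrArg τ hmt
    rw [map_mul, show τ (τ.ker.subtype (jT s)) = 1 from (jT s).2, mul_one] at this
    rw [this]; exact k.2
  have hx1 : σ₁ x = 1 := by
    show (τ x).1 = 1
    have := congrArg Prod.fst hτm
    rw [← hd, map_mul, Prod.fst_mul] at this
    simpa [show (τ (y : Δ)).1 = 1 from y.2] using this
  have hy1 : σ₂ y = 1 := by
    show (τ y).2 = 1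
    have := congrArg Prod.snd hτm
    rw [← hd, map_mul, Prod.snd_mul] at this
    simpa [show (τ (x : Δ)).2 = 1 from x.2] using this
  obtain ⟨a, ha⟩ := hπA ⟨x, hx1, hx⟩
  obtain ⟨b, hb⟩ := hπB ⟨y, hy1, hy⟩
  refine ⟨(a, b, s), Subtype.ext ?_⟩
  show ((πA a : E₁) : Δ) * (((πB b : E₂) : Δ) * (jT s : Δ)) = k
  rw [ha, hb, ← mul_assoc, ← hmt, ← hd]
  rfl

omit [Finite Q₁] [Finite Q₂] in
theorem tensor_finite [Finite Q₁] [Finite Q₂] :
    Finite (Additive (Abelianization Q₁) ⊗[ℤ] Additive (Abelianization Q₂)) := by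
  haveI : AddGroup.FG (Additive (Abelianization Q₁) ⊗[ℤ] Additive (Abelianization Q₂)) :=
    AddGroup.fg_iff.mpr ⟨Set.range fun p : Additive (Abelianization Q₁) × Additive (Abelianization Q₂) => p.1 ⊗ₜ[ℤ] p.2,
      (by
        rw [eq_top_iff]
        rintro t -
        induction t using TensorProduct.induction_on with
        | zero => exact zero_mem _
        | add a b ha hb => exact add_mem (by simpa using ha) (by simpa using hb)
        | tmul a b => exact AddSubgroup.subset_closure ⟨(a, b), rfl⟩), Set.finite_range _⟩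
  refine AddCommGroup.finite_of_fg_torsion _ fun t => isOfFinAddOrder_iff_nsmul_eq_zero.mpr
    ⟨Nat.card (Abelianization Q₁), Nat.card_pos, ?_⟩
  induction t using TensorProduct.induction_on with
  | zero => simp
  | add a b ha hb => rw [nsmul_add, ha, hb, add_zero]
  | tmul a b =>
    rw [TensorProduct.smul_tmul', show Nat.card (Abelianization Q₁) • a = 0 from card_nsmul_eq_zero', TensorProduct.zero_tmul]

/-- **multiplier of a product** -/
theorem multiplier_prod (hA : Cfsg.HasSchurMultiplier Q₁ A) (hB : Cfsg.HasSchurMultiplier Q₂ B) :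
    Cfsg.HasSchurMultiplier (Q₁ × Q₂)
      (A × B × Multiplicative (Additive (Abelianization Q₁) ⊗[ℤ] Additive (Abelianization Q₂))) := by
  classical
  haveI : Finite (Additive (Abelianization Q₁) ⊗[ℤ] Additive (Abelianization Q₂)) := tensor_finite
  obtain ⟨Γ₁, _, _, σ₁, h₁, ⟨e₁⟩⟩ := hA.1
  obtain ⟨Γ₂, _, _, σ₂, h₂, ⟨e₂⟩⟩ := hB.1
  let o₁ : Γ₁ → Additive (Abelianization Q₁) := fun a => Additive.ofMul (Abelianization.of (σ₁ a))
  let o₂ : Γ₂ → Additive (Abelianization Q₂) := fun a => Additive.ofMul (Abelianization.of (σ₂ a))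
  let f : Γ₁ × Γ₂ → Γ₁ × Γ₂ → Additive (Abelianization Q₁) ⊗[ℤ] Additive (Abelianization Q₂) :=
    fun a b => o₁ a.1 ⊗ₜ[ℤ] o₂ b.2
  have hl : ∀ a b c, f (a * b) c = f a c + f b c := fun a b c => by simp [f, o₁, TensorProduct.add_tmul]
  have hr : ∀ a b c, f a (b * c) = f a b + f a c := fun a b c => by simp [f, o₂, TensorProduct.tmul_add]
  let π : BilExt f hl hr →* Q₁ × Q₂ := (σ₁.prodMap σ₂).comp BilExt.proj
  have hker : ∀ u : BilExt f hl hr, π u = 1 → σ₁ u.base.1 = 1 ∧ σ₂ u.base.2 = 1 := fun u hu =>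
    ⟨congrArg Prod.fst hu, congrArg Prod.snd hu⟩
  have hf0 : ∀ u : BilExt f hl hr, π u = 1 → ∀ g, f u.base g = 0 ∧ f g u.base = 0 := fun u hu g => by
    obtain ⟨h, h'⟩ := hker u hu
    constructor <;> simp [f, o₁, o₂, h, h']
  have hstem : Cfsg.IsStemExtension π := by
    refine ⟨(Prod.map_surjective.mpr ⟨h₁.1, h₂.1⟩).comp BilExt.proj_surjective, fun u hu => ?_, fun u hu => ?_⟩
    · obtain ⟨h, h'⟩ := hker u hu
      refine Subgroup.mem_center_iff.mpr fun g => BilExt.ext (Prod.ext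
        (Subgroup.mem_center_iff.mp (h₁.2.1 h) _) (Subgroup.mem_center_iff.mp (h₂.2.1 h') _)) ?_
      show g.fib + u.fib + f g.base u.base = u.fib + g.fib + f u.base g.base
      rw [(hf0 u hu _).1, (hf0 u hu _).2]; abel
    · obtain ⟨h, h'⟩ := hker u hu
      let i₁ : Γ₁ →* BilExt f hl hr :=
        { toFun := fun a => ⟨(a, 1), 0⟩
          map_one' := rfl
          map_mul' := fun a b => BilExt.ext (by show (a * b, (1 : Γ₂)) = (a, 1) * (b, 1); simp) (by
            show (0 : _) = 0 + 0 + f (a, 1) (b, 1)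
            simp [f, o₂]) }
      let i₂ : Γ₂ →* BilExt f hl hr :=
        { toFun := fun a => ⟨(1, a), 0⟩
          map_one' := rfl
          map_mul' := fun a b => BilExt.ext (by show ((1 : Γ₁), a * b) = (1, a) * (1, b); simp) (by
            show (0 : _) = 0 + 0 + f (1, a) (1, b)
            simp [f, o₁]) }
      have hincl : ∀ t, BilExt.incl (f := f) (hl := hl) (hr := hr) (Multiplicative.ofAdd t) ∈ commutator _ := by
        intro t
        induction t using TensorProduct.induction_on with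
        | zero => exact (map_one (BilExt.incl (f := f) (hl := hl) (hr := hr))).symm ▸ one_mem _
        | tmul a b =>
          obtain ⟨q₁, hq₁⟩ := QuotientGroup.mk'_surjective (commutator Q₁) (Additive.toMul a)
          obtain ⟨q₂, hq₂⟩ := QuotientGroup.mk'_surjective (commutator Q₂) (Additive.toMul b)
          obtain ⟨x, rfl⟩ := h₁.1 q₁
          obtain ⟨y, rfl⟩ := h₂.1 q₂
          have := BilExt.incl_mem_commutator (f := f) (hl := hl) (hr := hr) (x, 1) (1, y) (by simp)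
          rw [show f (x, 1) (1, y) - f (1, y) (x, 1) = a ⊗ₜ[ℤ] b by
            show o₁ x ⊗ₜ[ℤ] o₂ y - o₁ 1 ⊗ₜ[ℤ] o₂ 1 = _
            rw [show o₁ 1 = 0 by simp [o₁], TensorProduct.zero_tmul, sub_zero,
              show o₁ x = a from congrArg Additive.ofMul hq₁, show o₂ y = b from congrArg Additive.ofMul hq₂]] at this
          exact this
        | add t t' ht ht' => rw [ofAdd_add, map_mul]; exact mul_mem ht ht'
      have hu' : u = i₁ u.base.1 * i₂ u.base.2 * BilExt.incl (Multiplicative.ofAdd (u.fib - f (u.base.1, 1) (1, u.base.2))) := by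
        refine BilExt.ext ?_ ?_
        · show u.base = (u.base.1, 1) * (1, u.base.2) * 1
          simp
        · show u.fib = 0 + 0 + f (u.base.1, 1) (1, u.base.2) + (u.fib - f (u.base.1, 1) (1, u.base.2)) + f ((u.base.1, 1) * (1, u.base.2)) 1
          rw [BilExt.f_one_right hr]; abel
      rw [hu']
      exact mul_mem (mul_mem (mem_commutator_map i₁ (h₁.2.2 h)) (mem_commutator_map i₂ (h₂.2.2 h'))) (hincl _)
  let e : π.ker ≃* A × B × Multiplicative (Additive (Abelianization Q₁) ⊗[ℤ] Additive (Abelianization Q₂)) :=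
    { toFun := fun u => (e₁ ⟨u.1.base.1, (hker u u.2).1⟩, e₂ ⟨u.1.base.2, (hker u u.2).2⟩, Multiplicative.ofAdd u.1.fib)
      invFun := fun p => ⟨⟨((e₁.symm p.1 : Γ₁), (e₂.symm p.2.1 : Γ₂)), Multiplicative.toAdd p.2.2⟩,
        Prod.ext (e₁.symm p.1).2 (e₂.symm p.2.1).2⟩
      left_inv := fun u => Subtype.ext (BilExt.ext (Prod.ext (congrArg Subtype.val (e₁.symm_apply_apply _))
        (congrArg Subtype.val (e₂.symm_apply_apply _))) rfl)
      right_inv := fun p => Prod.ext (e₁.apply_symm_apply _) (Prod.ext (e₂.apply_symm_apply _) rfl)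
      map_mul' := fun u v => by
        refine Prod.ext ?_ (Prod.ext ?_ ?_)
        · show e₁ _ = e₁ _ * e₁ _
          rw [← map_mul]; rfl
        · show e₂ _ = e₂ _ * e₂ _
          rw [← map_mul]; rfl
        · show Multiplicative.ofAdd (u.1.fib + v.1.fib + f u.1.base v.1.base) = _
          rw [(hf0 u u.2 _).1, add_zero]; rfl }
  exact multiplier_of_image hstem e fun Δ _ _ τ hτ => product_image hA hB τ hτ

/-- transport along an isomorphism of the kernel -/
theorem multiplier_congr {Q : Type u} [Group Q] {A : Type v} {B : Type w} [CommGroup A] [CommGroup B]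
    (e : A ≃* B) (h : Cfsg.HasSchurMultiplier Q A) : Cfsg.HasSchurMultiplier Q B := by
  obtain ⟨⟨Γ, i1, i2, σ, hσ, ⟨f⟩⟩, h2⟩ := h
  refine ⟨⟨Γ, i1, i2, σ, hσ, ⟨f.trans e⟩⟩, fun Δ _ _ τ hτ => ?_⟩
  obtain ⟨π, hπ⟩ := h2 Δ τ hτ
  exact ⟨π.comp e.symm.toMonoidHom, hπ.comp e.symm.surjective⟩

end

end Cfsg.Agent.Stem
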