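import Mathlib
import Cfsg.Prelude.Def_KGroupFacts
import Cfsg.Agent.Lib.Stem.Cover
import Cfsg.Agent.Lib.Stem.Stemify

/-!
# Projective representations and covers
-/

set_option autoImplicit false

open scoped commutatorElement
open Matrix

universe u v w

namespace Cfsg.Agent.Stem

variable {n : ℕ}

/-- the scalar matrices -/
noncomputable def scalarGL : ℂˣ →* GL (Fin n) ℂ :=
  Units.map (Matrix.scalar (Fin n) : ℂ →+* Matrix (Fin n) (Fin n) ℂ).toMonoidHom

theorem scalarGL_central (c : ℂˣ) : scalarGL (n := n) c ∈ Subgroup.center (GL (Fin n) ℂ) := by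
  rw [Subgroup.mem_center_iff]
  intro g
  exact Units.ext (Matrix.scalar_commute (c : ℂ) (fun r => Commute.all _ _) (g : Matrix (Fin n) (Fin n) ℂ)).eq.symm

theorem exists_scalarGL_of_central {g : GL (Fin n) ℂ} (hg : g ∈ Subgroup.center (GL (Fin n) ℂ)) :
    ∃ c : ℂˣ, scalarGL c = g := by
  have h1 : (g : Matrix (Fin n) (Fin n) ℂ) ∈ Set.range (Matrix.scalar (Fin n)) := by
    refine Matrix.mem_range_scalar_of_commute_transvectionStruct fun t => ?_
    let T : GL (Fin n) ℂ := ⟨t.toMatrix, t.inv.toMatrix, t.mul_inv, t.inv_mul⟩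
    exact congrArg Units.val (Subgroup.mem_center_iff.mp hg T)
  obtain ⟨c, hc⟩ := h1
  rcases isEmpty_or_nonempty (Fin n) with hn | hn
  · exact ⟨1, Units.ext (Subsingleton.elim _ _)⟩
  · have hc0 : c ≠ 0 := by
      intro h
      rw [h, map_zero] at hc
      exact not_isUnit_zero (hc ▸ g.isUnit)
    exact ⟨Units.mk0 c hc0, Units.ext hc⟩

theorem exists_unit_root (c : ℂˣ) {m : ℕ} (hm : 0 < m) : ∃ r : ℂˣ, r ^ m = c := by
  obtain ⟨r, hr⟩ := IsAlgClosed.exists_pow_nat_eq (c : ℂ) hm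
  have hr0 : r ≠ 0 := fun h => c.ne_zero (by rw [← hr, h, zero_pow hm.ne'])
  exact ⟨Units.mk0 r hr0, Units.ext hr⟩

theorem exists_central_root {g : GL (Fin n) ℂ} (hg : g ∈ Subgroup.center (GL (Fin n) ℂ)) {m : ℕ} (hm : 0 < m) :
    ∃ h ∈ Subgroup.center (GL (Fin n) ℂ), h ^ m = g := by
  obtain ⟨c, rfl⟩ := exists_scalarGL_of_central hg
  obtain ⟨r, rfl⟩ := exists_unit_root c hm
  exact ⟨scalarGL r, scalarGL_central r, (map_pow scalarGL r m).symm⟩

theorem det_scalarGL (c : ℂˣ) : ((scalarGL (n := n) c : GL (Fin n) ℂ) : Matrix (Fin n) (Fin n) ℂ).det = (c : ℂ) ^ n := by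
  show (Matrix.scalar (Fin n) (c : ℂ)).det = _
  rw [Matrix.scalar_apply, Matrix.det_diagonal, Finset.prod_const, Finset.card_univ, Fintype.card_fin]

/-- finitely many central elements of determinant one -/
theorem finite_central_det_one (n : ℕ) :
    Set.Finite {g : GL (Fin n) ℂ | g ∈ Subgroup.center (GL (Fin n) ℂ) ∧ (g : Matrix (Fin n) (Fin n) ℂ).det = 1} := by
  rcases Nat.eq_zero_or_pos n with rfl | hn
  · exact Set.Subsingleton.finite fun a _ b _ => Units.ext (Subsingleton.elim _ _)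
  · haveI : NeZero n := ⟨hn.ne'⟩
    haveI : Finite ↥((rootsOfUnity n ℂ : Subgroup ℂˣ) : Set ℂˣ) := inferInstanceAs (Finite (rootsOfUnity n ℂ))
    refine Set.Finite.subset ((Set.toFinite (rootsOfUnity n ℂ : Set ℂˣ)).image (scalarGL (n := n))) ?_
    rintro g ⟨hg, hd⟩
    obtain ⟨c, rfl⟩ := exists_scalarGL_of_central hg
    rw [det_scalarGL] at hd
    exact ⟨c, by rw [SetLike.mem_coe, mem_rootsOfUnity]; exact Units.ext (by simpa using hd), rfl⟩

/-- **projective representations lift to covers** -/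
theorem exists_projective_lift {Q : Type u} [Group Q] [Finite Q] {A : Type v} [CommGroup A]
    (hA : Cfsg.HasSchurMultiplier Q A) {Γ : Type w} [Group Γ] [Finite Γ] (σ : Γ →* Q)
    (hσ : Cfsg.IsStemExtension σ) (hk : Nat.card σ.ker = Nat.card A) (n : ℕ)
    (γ : Q →* (GL (Fin n) ℂ ⧸ Subgroup.center (GL (Fin n) ℂ))) :
    ∃ ρ : Γ →* GL (Fin n) ℂ, (QuotientGroup.mk' (Subgroup.center (GL (Fin n) ℂ))).comp ρ = γ.comp σ := by
  classical
  set C := Subgroup.center (GL (Fin n) ℂ) with hC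
  set m := QuotientGroup.mk' C
  -- representatives of determinant one
  let E : Subgroup (Q × GL (Fin n) ℂ) :=
    (γ.comp (MonoidHom.fst _ _)).eqLocus (m.comp (MonoidHom.snd _ _)) ⊓
      ((Matrix.GeneralLinearGroup.det.comp (MonoidHom.snd _ _) : Q × GL (Fin n) ℂ →* ℂˣ)).ker
  let τ : E →* Q := (MonoidHom.fst _ _).comp E.subtype
  have hτs : Function.Surjective τ := by
    intro q
    obtain ⟨g, hg⟩ := QuotientGroup.mk'_surjective C (γ q)
    rcases Nat.eq_zero_or_pos n with rfl | hn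
    · refine ⟨⟨(q, g), ⟨hg.symm, ?_⟩⟩, rfl⟩
      exact Units.ext (Matrix.det_isEmpty)
    · obtain ⟨r, hr⟩ := exists_unit_root (Matrix.GeneralLinearGroup.det g)⁻¹ hn
      refine ⟨⟨(q, g * scalarGL r), ⟨?_, ?_⟩⟩, rfl⟩
      · show γ q = m (g * scalarGL r)
        rw [map_mul, hg, show m (scalarGL r) = 1 from (QuotientGroup.eq_one_iff _).mpr (scalarGL_central r), mul_one]
      · show Matrix.GeneralLinearGroup.det (g * scalarGL r) = 1
        rw [map_mul, show Matrix.GeneralLinearGroup.det (scalarGL (n := n) r) = r ^ n from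
          Units.ext (by rw [Matrix.GeneralLinearGroup.val_det_apply, det_scalarGL, Units.val_pow_eq_pow_val]), hr,
          mul_inv_cancel]
  have hτk : ∀ x : E, τ x = 1 → (x : Q × GL (Fin n) ℂ).2 ∈ C := fun x hx => by
    refine (QuotientGroup.eq_one_iff _).mp ?_
    show m _ = 1
    rw [← show γ (x : Q × GL (Fin n) ℂ).1 = m (x : Q × GL (Fin n) ℂ).2 from x.2.1,
      show (x : Q × GL (Fin n) ℂ).1 = 1 from hx, map_one]
  have hτc : τ.ker ≤ Subgroup.center E := fun x hx => Subgroup.mem_center_iff.mpr fun y => Subtype.ext (Prod.ext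
    (by
      show (y : Q × GL (Fin n) ℂ).1 * (x : Q × GL (Fin n) ℂ).1 = (x : Q × GL (Fin n) ℂ).1 * (y : Q × GL (Fin n) ℂ).1
      rw [show (x : Q × GL (Fin n) ℂ).1 = 1 from hx, mul_one, one_mul])
    (Subgroup.mem_center_iff.mp (hτk x hx) _))
  haveI : Finite τ.ker := by
    haveI := (finite_central_det_one n).to_subtype
    refine Finite.of_injective (fun x : τ.ker => (⟨((x : E) : Q × GL (Fin n) ℂ).2, hτk x x.2, congrArg Units.val (x : E).2.2⟩ :
      {g : GL (Fin n) ℂ | g ∈ C ∧ (g : Matrix (Fin n) (Fin n) ℂ).det = 1})) fun x y h => ?_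
    exact Subtype.ext (Subtype.ext (Prod.ext ((show ((x : E) : Q × GL (Fin n) ℂ).1 = 1 from x.2).trans (show ((y : E) : Q × GL (Fin n) ℂ).1 = 1 from y.2).symm)
      (congrArg Subtype.val h)))
  haveI : Finite (E ⧸ τ.ker) := Finite.of_equiv Q (QuotientGroup.quotientKerEquivOfSurjective τ hτs).symm.toEquiv
  haveI : Finite E := Finite.of_equiv _ (Subgroup.groupEquivQuotientProdSubgroup (s := τ.ker)).symm
  obtain ⟨-, hinjE⟩ := fibFst_injOn_commutator hA hσ hk hτs hτc
  -- all representatives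
  let F : Subgroup (Γ × GL (Fin n) ℂ) :=
    ((γ.comp σ).comp (MonoidHom.fst _ _)).eqLocus (m.comp (MonoidHom.snd _ _))
  let p : F →* Γ := (MonoidHom.fst _ _).comp F.subtype
  have hp : Function.Surjective p := fun g => by
    obtain ⟨h, hh⟩ := QuotientGroup.mk'_surjective C (γ (σ g))
    exact ⟨⟨(g, h), hh.symm⟩, rfl⟩
  let j : fib σ τ →* F :=
    { toFun := fun x => ⟨((x : Γ × E).1, ((x : Γ × E).2 : Q × GL (Fin n) ℂ).2), by
        show γ (σ (x : Γ × E).1) = m _
        rw [show σ (x : Γ × E).1 = τ (x : Γ × E).2 from x.2]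
        exact (x : Γ × E).2.2.1⟩
      map_one' := rfl
      map_mul' := fun _ _ => rfl }
  have hF : ∀ x ∈ commutator F, p x = 1 → x = 1 := by
    have hle : commutator F ≤ (commutator (fib σ τ)).map j := by
      refine Subgroup.commutator_le.mpr fun a _ b _ => ?_
      obtain ⟨a', ha'⟩ := fibFst_surjective (σ := σ) hτs (p a)
      obtain ⟨b', hb'⟩ := fibFst_surjective (σ := σ) hτs (p b)
      refine ⟨⁅a', b'⁆, Subgroup.commutator_mem_commutator (Subgroup.mem_top _) (Subgroup.mem_top _), ?_⟩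
      rw [map_commutatorElement]
      have key : ∀ (c : F) (c' : fib σ τ), fibFst σ τ c' = p c →
          ∀ d : F, d * (c⁻¹ * j c') = (c⁻¹ * j c') * d := fun c c' h d => by
        have h1 : (c⁻¹ * j c' : F).1.1 = 1 := by
          show (p c)⁻¹ * fibFst σ τ c' = 1
          rw [h, inv_mul_cancel]
        have h2 : (c⁻¹ * j c' : F).1.2 ∈ C := by
          refine (QuotientGroup.eq_one_iff _).mp ?_
          show m _ = 1
          rw [← show γ (σ (c⁻¹ * j c' : F).1.1) = m (c⁻¹ * j c' : F).1.2 from (c⁻¹ * j c' : F).2, h1,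
            map_one, map_one]
        exact Subtype.ext (Prod.ext (by
          show d.1.1 * (c⁻¹ * j c' : F).1.1 = (c⁻¹ * j c' : F).1.1 * d.1.1
          rw [h1, mul_one, one_mul]) (Subgroup.mem_center_iff.mp h2 _))
      have c₁ := key a a' ha'
      have c₂ := key b b' hb'
      rw [show j a' = a * (a⁻¹ * j a') by group, show j b' = b * (b⁻¹ * j b') by group]
      generalize a⁻¹ * j a' = z₁ at *
      generalize b⁻¹ * j b' = z₂ at *
      rw [commutatorElement_def, commutatorElement_def]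
      calc a * z₁ * (b * z₂) * (a * z₁)⁻¹ * (b * z₂)⁻¹
          = a * (z₁ * (b * z₂)) * z₁⁻¹ * a⁻¹ * z₂⁻¹ * b⁻¹ := by group
        _ = a * b * (z₂ * a⁻¹) * z₂⁻¹ * b⁻¹ := by rw [← c₁]; group
        _ = a * b * a⁻¹ * b⁻¹ := by rw [← c₂]; group
    intro x hx h1
    obtain ⟨y, hy, rfl⟩ := hle hx
    rw [hinjE y hy h1, map_one]
  let π : Abelianization F →* Abelianization Γ := Abelianization.map p
  have hsec : ∀ a : Abelianization Γ, ∀ k : ℕ, a ^ k = 1 → k ∣ Nat.card (Abelianization Γ) →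
      ∃ b, π b = a ∧ b ^ k = 1 := by
    intro a k hak hkd
    obtain ⟨g, rfl⟩ := QuotientGroup.mk'_surjective (commutator Γ) a
    obtain ⟨f, rfl⟩ := hp g
    have h1 : p (f ^ k) ∈ (commutator F).map p := by
      rw [map_commutator_surj p hp, ← Abelianization.ker_of, MonoidHom.mem_ker, map_pow, map_pow]
      exact hak
    obtain ⟨c, hc, hce⟩ := h1
    have hz : (c⁻¹ * f ^ k : F).1.2 ∈ C := by
      refine (QuotientGroup.eq_one_iff _).mp ?_
      show m _ = 1
      rw [← show γ (σ (c⁻¹ * f ^ k : F).1.1) = m (c⁻¹ * f ^ k : F).1.2 from (c⁻¹ * f ^ k : F).2]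
      show γ (σ (p (c⁻¹ * f ^ k))) = 1
      rw [map_mul, map_inv, hce, inv_mul_cancel, map_one, map_one]
    obtain ⟨r, hr, hrk⟩ := exists_central_root hz (Nat.pos_of_dvd_of_pos hkd Nat.card_pos)
    let z : F := ⟨(1, r⁻¹), by
      show γ (σ 1) = m r⁻¹
      rw [map_one, map_one]
      exact ((QuotientGroup.eq_one_iff _).mpr (inv_mem hr)).symm⟩
    have hzc : Commute f z := Subtype.ext (Prod.ext (by simp [z])
      (Subgroup.mem_center_iff.mp (inv_mem hr) _))
    refine ⟨Abelianization.of (f * z), ?_, ?_⟩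
    · show Abelianization.of (p (f * z)) = _
      rw [map_mul, show p z = 1 from rfl, mul_one]; rfl
    · rw [← map_pow]
      have : (f * z) ^ k = c := by
        rw [hzc.mul_pow]
        refine Subtype.ext (Prod.ext ?_ ?_)
        · show p (f ^ k) * (1 : Γ) ^ k = p c
          rw [one_pow, mul_one, hce]
        · show (f ^ k : F).1.2 * r⁻¹ ^ k = c.1.2
          rw [inv_pow, hrk]
          show _ * ((c : Γ × GL (Fin n) ℂ).2⁻¹ * (f ^ k : F).1.2)⁻¹ = _
          rw [_root_.mul_inv_rev, inv_inv, mul_inv_cancel_left]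
      rw [this, ← MonoidHom.mem_ker, Abelianization.ker_of]
      exact hc
  obtain ⟨s, hs⟩ := exists_section π hsec
  have hπs : ∀ a, π (s a) = a := fun a => DFunLike.congr_fun hs a
  let H : Subgroup F := s.range.comap Abelianization.of
  let pH : H →* Γ := p.comp H.subtype
  have hH : Function.Bijective pH := by
    refine ⟨(injective_iff_map_eq_one pH).mpr fun x hx => ?_, fun g => ?_⟩
    · obtain ⟨a, ha⟩ := x.2
      have ha1 : a = 1 := by
        have := congrArg π ha
        rw [hπs] at this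
        rw [this]; show Abelianization.of (p x) = 1
        rw [show p (x : F) = 1 from hx, map_one]
      refine Subtype.ext (hF x ?_ hx)
      rw [← Abelianization.ker_of, MonoidHom.mem_ker, ← ha, ha1, map_one]
    · obtain ⟨f, hf⟩ := QuotientGroup.mk'_surjective (commutator F) (s (Abelianization.of g))
      have h1 : Abelianization.of (p f) = Abelianization.of g := by
        have := congrArg π hf
        rw [hπs] at this
        exact this
      have h2 : (p f)⁻¹ * g ∈ (commutator F).map p := by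
        rw [map_commutator_surj p hp, ← Abelianization.ker_of, MonoidHom.mem_ker, map_mul, map_inv, h1, inv_mul_cancel]
      obtain ⟨c, hc, hce⟩ := h2
      refine ⟨⟨f * c, ⟨Abelianization.of g, ?_⟩⟩, ?_⟩
      · rw [map_mul, show Abelianization.of c = 1 by rwa [← MonoidHom.mem_ker, Abelianization.ker_of], mul_one]
        exact hf.symm
      · show p (f * c) = g
        rw [map_mul, hce, mul_inv_cancel_left]
  let e := MulEquiv.ofBijective pH hH
  refine ⟨((MonoidHom.snd _ _).comp (F.subtype.comp H.subtype)).comp e.symm.toMonoidHom, ?_⟩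
  ext g
  have h := (e.symm g : F).2
  show m (e.symm g : F).1.2 = γ (σ g)
  rw [← show γ (σ (e.symm g : F).1.1) = m (e.symm g : F).1.2 from h]
  show γ (σ (e (e.symm g))) = _
  rw [e.apply_symm_apply]

/-- a monomial representation in which a central subgroup acts by a given character -/
theorem exists_rep_with_central_char {Δ : Type u} [Group Δ] [Finite Δ] (K : Subgroup Δ) (hK : K ≤ Subgroup.center Δ)
    (χ : K →* ℂˣ) : ∃ (n : ℕ), 0 < n ∧ ∃ π : Δ →* GL (Fin n) ℂ, ∀ k : K, π k = scalarGL (χ k) := by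
  classical
  haveI : K.Normal := ⟨fun x hx g => by
    rw [Subgroup.mem_center_iff.mp (hK hx) g, mul_inv_cancel_right]; exact hx⟩
  let V : Submodule ℂ (Δ → ℂ) :=
    { carrier := {f | ∀ (k : K) x, f ((k : Δ) * x) = (χ k : ℂ) * f x}
      add_mem' := fun hf hg k x => by simp only [Pi.add_apply, hf k x, hg k x]; ring
      zero_mem' := fun k x => by simp
      smul_mem' := fun c f hf k x => by simp only [Pi.smul_apply, smul_eq_mul, hf k x]; ring }
  haveI : Fintype Δ := Fintype.ofFinite Δ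
  let T : Δ →* (V →ₗ[ℂ] V) :=
    { toFun := fun d =>
        { toFun := fun f => ⟨fun x => (f : Δ → ℂ) (x * d), fun k x => by
            show (f : Δ → ℂ) ((k : Δ) * x * d) = _
            rw [mul_assoc]; exact f.2 k _⟩
          map_add' := fun _ _ => rfl
          map_smul' := fun _ _ => rfl }
      map_one' := LinearMap.ext fun f => Subtype.ext (funext fun x => by simp)
      map_mul' := fun a b => LinearMap.ext fun f => Subtype.ext (funext fun x => by simp [mul_assoc]) }
  let b := Module.finBasis ℂ V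
  have hVne : ∃ f : V, f ≠ 0 := by
    refine ⟨⟨fun x => if h : x ∈ K then (χ ⟨x, h⟩ : ℂ) else 0, fun k x => ?_⟩, ?_⟩
    · by_cases hx : x ∈ K
      · show (if h : _ then _ else _) = _
        simp only [dif_pos (mul_mem k.2 hx), dif_pos hx, ← Units.val_mul, ← map_mul]; rfl
      · have : (k : Δ) * x ∉ K := fun h => hx (by simpa using mul_mem (inv_mem k.2) h)
        show (if h : _ then _ else _) = _
        simp only [dif_neg this, dif_neg hx, mul_zero]
    · intro h
      have := congrFun (congrArg Subtype.val h) 1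
      simp at this
  have hpos : 0 < Module.finrank ℂ V := by
    obtain ⟨f, hf⟩ := hVne
    exact Module.finrank_pos_iff_exists_ne_zero.mpr ⟨f, hf⟩
  let M : Δ →* Matrix (Fin (Module.finrank ℂ V)) (Fin (Module.finrank ℂ V)) ℂ :=
    ((LinearMap.toMatrixAlgEquiv b).toAlgHom : (V →ₗ[ℂ] V) →ₐ[ℂ] _).toMonoidHom.comp T
  refine ⟨_, hpos, M.toHomUnits, fun k => Units.ext ?_⟩
  show LinearMap.toMatrixAlgEquiv b (T k) = Matrix.scalar _ (χ k : ℂ)
  have : T k = algebraMap ℂ (Module.End ℂ V) (χ k : ℂ) := by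
    refine LinearMap.ext fun f => Subtype.ext (funext fun x => ?_)
    show (f : Δ → ℂ) (x * k) = (χ k : ℂ) * (f : Δ → ℂ) x
    rw [Subgroup.mem_center_iff.mp (hK k.2) x]
    exact f.2 k x
  rw [this]
  exact (LinearMap.toMatrixAlgEquiv b).commutes _

/-- **lifting all projective representations makes a cover** -/
theorem kernel_surj_of_lift {Q : Type u} [Group Q] {Γ : Type v} [Group Γ] [Finite Γ] (σ : Γ →* Q)
    (hσ : Cfsg.IsStemExtension σ)
    (hlift : ∀ (n : ℕ) (γ : Q →* (GL (Fin n) ℂ ⧸ Subgroup.center (GL (Fin n) ℂ))), ∃ ρ : Γ →* GL (Fin n) ℂ,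
      (QuotientGroup.mk' (Subgroup.center (GL (Fin n) ℂ))).comp ρ = γ.comp σ)
    {Δ : Type w} [Group Δ] [Finite Δ] (τ : Δ →* Q) (hτ : Cfsg.IsStemExtension τ) :
    ∃ π : σ.ker →* τ.ker, Function.Surjective π := by
  classical
  have hinj : Function.Injective (fibKerFst σ τ) := by
    refine (injective_iff_map_eq_one _).mpr fun x hx => ?_
    by_contra hne
    have h1 : fibFst σ τ x.1 = 1 := congrArg Subtype.val hx
    have hk2 : τ (fibSnd σ τ x.1) = 1 := (fibBase_eq σ τ x.1).symm.trans x.2.1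
    letI : CommGroup τ.ker := { (inferInstance : Group τ.ker) with
      mul_comm := fun a b => Subtype.ext (Subgroup.mem_center_iff.mp (hτ.2.1 b.2) a) }
    set k : τ.ker := ⟨fibSnd σ τ x.1, hk2⟩
    have hk : k ≠ 1 := fun h => hne (Subtype.ext (Subtype.ext (Prod.ext h1 (congrArg Subtype.val h))))
    obtain ⟨χ, hχ⟩ := CommGroup.exists_apply_ne_one_of_hasEnoughRootsOfUnity τ.ker ℂ hk
    obtain ⟨n, hn, π, hπ⟩ := exists_rep_with_central_char τ.ker hτ.2.1 χ
    set C := Subgroup.center (GL (Fin n) ℂ)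
    set m := QuotientGroup.mk' C
    let eQ := QuotientGroup.quotientKerEquivOfSurjective τ hτ.1
    let γ : Q →* (GL (Fin n) ℂ ⧸ C) := (QuotientGroup.lift τ.ker (m.comp π) fun y hy => by
      rw [MonoidHom.mem_ker, MonoidHom.comp_apply, hπ ⟨y, hy⟩]
      exact (QuotientGroup.eq_one_iff _).mpr (scalarGL_central _)).comp eQ.symm.toMonoidHom
    have hγ : ∀ d, γ (τ d) = m (π d) := fun d => by
      have he : eQ.symm (τ d) = (d : Δ ⧸ τ.ker) := eQ.symm_apply_eq.mpr rfl
      simp only [γ, MonoidHom.comp_apply, MulEquiv.coe_toMonoidHom, he, QuotientGroup.lift_mk]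
    obtain ⟨ρ, hρ⟩ := hlift n γ
    let r₁ : fib σ τ →* GL (Fin n) ℂ := ρ.comp (fibFst σ τ)
    let r₂ : fib σ τ →* GL (Fin n) ℂ := π.comp (fibSnd σ τ)
    have hdiff : ∀ y, ∀ g, g * ((r₁ y)⁻¹ * r₂ y) = ((r₁ y)⁻¹ * r₂ y) * g := fun y => by
      refine Subgroup.mem_center_iff.mp ((QuotientGroup.eq_one_iff _).mp ?_)
      show m ((r₁ y)⁻¹ * r₂ y) = 1
      have e1 : m (r₁ y) = γ (σ (fibFst σ τ y)) := DFunLike.congr_fun hρ _
      have e2 : m (r₂ y) = γ (σ (fibFst σ τ y)) := by
        rw [show σ (fibFst σ τ y) = τ (fibSnd σ τ y) from fibBase_eq σ τ y, hγ]; rfl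
      rw [map_mul, map_inv, e1, e2, inv_mul_cancel]
    have hle : commutator (fib σ τ) ≤ r₁.eqLocus r₂ := by
      refine Subgroup.commutator_le.mpr fun a _ b _ => ?_
      show r₁ ⁅a, b⁆ = r₂ ⁅a, b⁆
      have c₁ := hdiff a
      have c₂ := hdiff b
      rw [map_commutatorElement, map_commutatorElement, show r₂ a = r₁ a * ((r₁ a)⁻¹ * r₂ a) by group,
        show r₂ b = r₁ b * ((r₁ b)⁻¹ * r₂ b) by group]
      generalize (r₁ a)⁻¹ * r₂ a = z₁ at *
      generalize (r₁ b)⁻¹ * r₂ b = z₂ at *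
      generalize r₁ a = a at *
      generalize r₁ b = b at *
      rw [commutatorElement_def, commutatorElement_def]
      symm
      calc a * z₁ * (b * z₂) * (a * z₁)⁻¹ * (b * z₂)⁻¹
          = a * (z₁ * (b * z₂)) * z₁⁻¹ * a⁻¹ * z₂⁻¹ * b⁻¹ := by group
        _ = a * b * (z₂ * a⁻¹) * z₂⁻¹ * b⁻¹ := by rw [← c₁]; group
        _ = a * b * a⁻¹ * b⁻¹ := by rw [← c₂]; group
    have h := hle x.2.2
    change ρ (fibFst σ τ x.1) = π (fibSnd σ τ x.1) at h
    rw [h1, map_one, hπ k] at h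
    haveI : NeZero n := ⟨hn.ne'⟩
    have h00 : (1 : ℂ) = (χ k : ℂ) := by
      have := congrArg (fun g : GL (Fin n) ℂ => (g : Matrix (Fin n) (Fin n) ℂ) 0 0) h
      simpa [scalarGL] using this
    exact hχ (Units.ext h00.symm)
  let e := MulEquiv.ofBijective (fibKerFst σ τ) ⟨hinj, fibKerFst_surjective hτ.1 hσ.2.2⟩
  exact ⟨(fibKerSnd σ τ).comp e.symm.toMonoidHom, (fibKerSnd_surjective hσ.1 hτ.2.2).comp e.symm.surjective⟩

end Cfsg.Agent.Stem
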