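import Mathlib
import Cfsg.Prelude.Def_KGroupFacts
import Cfsg.Agent.Lib.Stem.Cover

/-!
# Transfer bounds on multipliers
-/

set_option autoImplicit false

open scoped commutatorElement

universe u v w

namespace Cfsg.Agent.Stem

/-- the index-th power of a central element of the derived subgroup lies in the derived subgroup of `P` -/
theorem pow_index_mem_commutator {Γ : Type u} [Group Γ] [Finite Γ] (P : Subgroup Γ) {z : Γ}
    (hzc : z ∈ Subgroup.center Γ) (hzd : z ∈ commutator Γ) :
    ∃ h : z ^ P.index ∈ P, (⟨z ^ P.index, h⟩ : P) ∈ commutator P := by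
  classical
  have key : ∀ (k : ℕ) (g₀ : Γ), g₀⁻¹ * z ^ k * g₀ ∈ P → g₀⁻¹ * z ^ k * g₀ = z ^ k := fun k g₀ _ => by
    rw [mul_assoc, ← Subgroup.mem_center_iff.mp (Subgroup.pow_mem _ hzc k) g₀, inv_mul_cancel_left]
  have h1 : MonoidHom.transfer (Abelianization.of (G := P)) z = 1 :=
    Abelianization.commutator_subset_ker (MonoidHom.transfer (Abelianization.of (G := P))) hzd
  rw [MonoidHom.transfer_eq_pow (Abelianization.of (G := P)) z key] at h1
  exact ⟨MonoidHom.transfer_eq_pow_aux z key, by rw [← Abelianization.ker_of]; exact h1⟩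

/-- a central element of order `p ^ a` in the derived subgroup of a `p`-group: `p ^ (2a)` divides the index -/
theorem sq_dvd_index {p : ℕ} [Fact p.Prime] :
    ∀ (N : ℕ) (P : Type u) [Group P] [Finite P], IsPGroup p P → Nat.card P ≤ N → ∀ (X : Subgroup P),
      X ≤ Subgroup.center P → ∀ (z : P) (a : ℕ), z ∈ X → z ∈ commutator P → orderOf z = p ^ a →
      p ^ (2 * a) ∣ X.index := by
  intro N
  induction N with
  | zero => intro P _ _ _ hN; exact absurd hN (by have := Nat.card_pos (α := P); omega)
  | succ N ih =>
    -- inner induction on the index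
    intro P _ _ hP hN X
    induction hm : X.index using Nat.strong_induction_on generalizing X with
    | _ m ihm =>
      subst hm
      intro hX z a hzX hzd hz
      rcases Nat.eq_zero_or_pos a with rfl | ha
      · simp
      haveI hXn : X.Normal := ⟨fun x hx g => by rw [Subgroup.mem_center_iff.mp (hX hx) g, mul_inv_cancel_right]; exact hx⟩
      have hXne : X ≠ ⊤ := fun h => by
        have : commutator P = ⊥ := by
          rw [eq_bot_iff, commutator_def, Subgroup.commutator_le]
          intro x _ y _
          rw [Subgroup.mem_bot, commutatorElement_eq_one_iff_mul_comm]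
          exact (Subgroup.mem_center_iff.mp (hX (h ▸ Subgroup.mem_top x)) y).symm
        rw [this, Subgroup.mem_bot] at hzd
        rw [hzd, orderOf_one] at hz
        exact absurd hz (Nat.one_lt_pow ha.ne' (Fact.out : p.Prime).one_lt).ne
      have hQp : IsPGroup p (P ⧸ X) := hP.to_quotient X
      haveI : Nontrivial (P ⧸ X) := QuotientGroup.nontrivial_iff.mpr hXne
      haveI : Finite (P ⧸ X) := inferInstance
      haveI := hQp.center_nontrivial
      obtain ⟨b, hb⟩ := exists_prime_orderOf_dvd_card' (G := Subgroup.center (P ⧸ X)) p (by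
        obtain ⟨k, hk⟩ := (hQp.to_subgroup (Subgroup.center (P ⧸ X))).exists_card_eq
        rw [hk]
        refine dvd_pow_self p fun h0 => ?_
        rw [h0, pow_zero] at hk
        exact (Finite.one_lt_card (α := Subgroup.center (P ⧸ X))).ne' hk)
      obtain ⟨x, hx⟩ := QuotientGroup.mk'_surjective X (b : P ⧸ X)
      have hxX : x ∉ X := fun h => by
        have hb1 : b = 1 := Subtype.ext (hx.symm.trans ((QuotientGroup.eq_one_iff x).mpr h))
        rw [hb1, orderOf_one] at hb
        exact (Fact.out : p.Prime).one_lt.ne hb
      have hxp : x ^ p ∈ X := by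
        refine (QuotientGroup.eq_one_iff _).mp ?_
        show QuotientGroup.mk' X (x ^ p) = 1
        rw [map_pow, hx, ← SubgroupClass.coe_pow, ← hb, pow_orderOf_eq_one]; rfl
      have hxg : ∀ g, ⁅x, g⁆ ∈ X := fun g => by
        refine (QuotientGroup.eq_one_iff _).mp ?_
        show QuotientGroup.mk' X ⁅x, g⁆ = 1
        rw [map_commutatorElement, hx, commutatorElement_eq_one_iff_mul_comm]
        exact (Subgroup.mem_center_iff.mp b.2 _).symm
      let Y := X ⊔ Subgroup.zpowers x
      have hXY : X < Y := lt_of_le_of_ne le_sup_left fun h => hxX (h ▸ (le_sup_right : Subgroup.zpowers x ≤ Y) (Subgroup.mem_zpowers x))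
      have hYi : X.index = p * Y.index := by
        have hYe : Y = (Subgroup.zpowers (b : P ⧸ X)).comap (QuotientGroup.mk' X) := by
          rw [← hx, ← MonoidHom.map_zpowers, Subgroup.comap_map_eq, QuotientGroup.ker_mk', sup_comm]
        have h := Subgroup.card_mul_index (Subgroup.zpowers (b : P ⧸ X))
        rw [Nat.card_zpowers, Subgroup.orderOf_coe, hb, ← Subgroup.index_eq_card] at h
        rw [hYe, Subgroup.index_comap_of_surjective _ (QuotientGroup.mk'_surjective X), h]
      have hlt : Y.index < X.index := by
        rw [hYi]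
        have hpos : 0 < Y.index := Nat.pos_of_ne_zero Subgroup.index_ne_zero_of_finite
        have := (Fact.out : p.Prime).two_le
        nlinarith
      by_cases hxc : x ∈ Subgroup.center P
      · have := ihm Y.index hlt Y rfl (sup_le hX ((Subgroup.zpowers_le).mpr hxc)) z a (hXY.le hzX) hzd hz
        rw [hYi]
        exact this.trans (dvd_mul_left _ _)
      by_cases hcyc : ∃ w ∈ X, orderOf w = p ∧ w ∉ Subgroup.zpowers z
      · -- pass to a smaller group
        obtain ⟨w, hwX, hwp, hwz⟩ := hcyc
        let W := Subgroup.zpowers w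
        haveI : W.Normal := ⟨fun y hy g => by
          rw [Subgroup.mem_center_iff.mp (hX ((Subgroup.zpowers_le).mpr hwX hy)) g, mul_inv_cancel_right]; exact hy⟩
        let π := QuotientGroup.mk' W
        have hπ := QuotientGroup.mk'_surjective W
        have hker : π.ker = W := QuotientGroup.ker_mk' W
        have hcard : Nat.card (P ⧸ W) ≤ N := by
          have h := Subgroup.card_mul_index W
          rw [Nat.card_zpowers, hwp, Subgroup.index_eq_card] at h
          have := (Fact.out : p.Prime).two_le
          have : 0 < Nat.card (P ⧸ W) := Nat.card_pos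
          nlinarith
        have hres := ih (P ⧸ W) (hP.to_quotient W) hcard (X.map π) (by
          rintro _ ⟨y, hy, rfl⟩
          refine Subgroup.mem_center_iff.mpr fun g => ?_
          obtain ⟨g, rfl⟩ := hπ g
          rw [← map_mul, ← map_mul, Subgroup.mem_center_iff.mp (hX hy) g]) (π z) a ⟨z, hzX, rfl⟩
          (by rw [← map_commutator_surj π hπ]; exact ⟨z, hzd, rfl⟩) ?_
        · rwa [Subgroup.index_map_eq _ hπ (by rw [hker]; exact (Subgroup.zpowers_le).mpr hwX)] at hres
        · have hinj : ∀ k : ℕ, π (z ^ k) = 1 → z ^ k = 1 := by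
            intro k hk
            have hk' : z ^ k ∈ W := hker ▸ MonoidHom.mem_ker.mpr hk
            obtain ⟨i, hi⟩ := hk'
            by_contra hne
            apply hwz
            have hWp : Nat.card W = p := by rw [Nat.card_zpowers, hwp]
            have : (⟨w, Subgroup.mem_zpowers w⟩ : W) ∈ Subgroup.zpowers (⟨z ^ k, ⟨i, hi⟩⟩ : W) :=
              mem_zpowers_of_prime_card hWp fun h => hne (congrArg Subtype.val h)
            obtain ⟨j, hj⟩ := this
            rw [← show (z ^ k) ^ j = w from congrArg Subtype.val hj]
            exact Subgroup.zpow_mem _ (Subgroup.pow_mem _ (Subgroup.mem_zpowers z) k) j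
          rw [← hz]
          exact Nat.dvd_antisymm (orderOf_map_dvd π z) (orderOf_dvd_of_pow_eq_one (hinj _ (by
            rw [map_pow, pow_orderOf_eq_one])))
      -- the elements of order `p` in `X` form a cyclic group
      push Not at hcyc
      let c : P →* P :=
        { toFun := fun g => ⁅x, g⁆
          map_one' := by simp
          map_mul' := fun g h => by
            show ⁅x, g * h⁆ = ⁅x, g⁆ * ⁅x, h⁆
            calc ⁅x, g * h⁆ = ⁅x, g⁆ * (g * ⁅x, h⁆) * g⁻¹ := by rw [commutatorElement_def, commutatorElement_def, commutatorElement_def]; group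
              _ = _ := by rw [Subgroup.mem_center_iff.mp (hX (hxg h)) g]; group }
      have hcp : ∀ g, c g ^ p = 1 := fun g => by
        have hpow : ∀ n : ℕ, ⁅x ^ n, g⁆ = ⁅x, g⁆ ^ n := by
          intro n
          induction n with
          | zero => simp
          | succ n ihn =>
            calc ⁅x ^ (n + 1), g⁆ = x * ⁅x ^ n, g⁆ * x⁻¹ * ⁅x, g⁆ := by
                  rw [commutatorElement_def, commutatorElement_def, commutatorElement_def, pow_succ']; group
              _ = _ := by
                  rw [ihn, Subgroup.mem_center_iff.mp (Subgroup.pow_mem _ (hX (hxg g)) n) x, mul_inv_cancel_right, pow_succ]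
        show ⁅x, g⁆ ^ p = 1
        rw [← hpow, commutatorElement_eq_one_iff_mul_comm]
        exact (Subgroup.mem_center_iff.mp (hX hxp) g).symm
      let z₀ := z ^ p ^ (a - 1)
      have hz₀ : orderOf z₀ = p := by
        rw [orderOf_pow' z (pow_ne_zero _ (Fact.out : p.Prime).ne_zero), hz,
          Nat.gcd_eq_right (pow_dvd_pow p (Nat.sub_le a 1)), Nat.pow_div (Nat.sub_le a 1) (Fact.out : p.Prime).pos]
        rw [show a - (a - 1) = 1 by omega, pow_one]
      have hrange : c.range = Subgroup.zpowers z₀ := by
        have hle : c.range ≤ Subgroup.zpowers z₀ := by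
          rintro _ ⟨g, rfl⟩
          by_cases h1 : c g = 1
          · rw [h1]; exact one_mem _
          have hzp : c g ∈ Subgroup.zpowers z := hcyc _ (hxg g) (orderOf_eq_prime (hcp g) h1)
          obtain ⟨k, hk⟩ := Subgroup.mem_zpowers_iff.mp hzp
          have hd : (orderOf z : ℤ) ∣ k * p := by
            rw [orderOf_dvd_iff_zpow_eq_one, zpow_mul, hk, zpow_natCast, hcp]
          rw [hz] at hd
          have hd2 : ((p ^ (a - 1) : ℕ) : ℤ) ∣ k := by
            have hp0 : (p : ℤ) ≠ 0 := by exact_mod_cast (Fact.out : p.Prime).ne_zero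
            refine Int.dvd_of_mul_dvd_mul_right hp0 ?_
            have : ((p ^ (a - 1) : ℕ) : ℤ) * p = ((p ^ a : ℕ) : ℤ) := by
              rw [← Nat.cast_mul, ← pow_succ, show a - 1 + 1 = a by omega]
            rwa [this]
          obtain ⟨j, rfl⟩ := hd2
          exact ⟨j, by rw [← hk, zpow_mul, zpow_natCast]⟩
        refine Subgroup.eq_of_le_of_card_ge hle ?_
        rw [Nat.card_zpowers, hz₀]
        obtain ⟨g, hg⟩ : ∃ g, c g ≠ 1 := by
          by_contra hall
          push Not at hall
          exact hxc (Subgroup.mem_center_iff.mpr fun g => (commutatorElement_eq_one_iff_mul_comm.mp (hall g)).symm)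
        calc p = orderOf (c g) := (orderOf_eq_prime (hcp g) hg).symm
          _ = Nat.card (Subgroup.zpowers (c g)) := (Nat.card_zpowers _).symm
          _ ≤ Nat.card c.range := Subgroup.card_le_of_le ((Subgroup.zpowers_le (g := c g) (H := c.range)).mpr ⟨g, rfl⟩)
      let C := c.ker
      have hCi : C.index = p := by
        rw [Subgroup.index_ker, hrange, Nat.card_zpowers, hz₀]
      have hYC : Y ≤ C := by
        refine sup_le (fun y hy => ?_) ((Subgroup.zpowers_le).mpr ?_)
        · show ⁅x, y⁆ = 1
          rw [commutatorElement_eq_one_iff_mul_comm]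
          exact Subgroup.mem_center_iff.mp (hX hy) x
        · show ⁅x, x⁆ = 1
          exact commutatorElement_self x
      obtain ⟨hzC, hzCd⟩ := pow_index_mem_commutator C (hX hzX) hzd
      have hCN : Nat.card C ≤ N := by
        have h := Subgroup.card_mul_index C
        rw [hCi] at h
        have := (Fact.out : p.Prime).two_le
        have : 0 < Nat.card C := Nat.card_pos
        nlinarith
      have hres := ih C (hP.to_subgroup C) hCN (Y.subgroupOf C) (by
        intro y hy
        refine Subgroup.mem_center_iff.mpr fun g => Subtype.ext ?_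
        have : Subgroup.zpowers x ⊔ X ≤ Subgroup.centralizer {(g : P)} := by
          refine sup_le ((Subgroup.zpowers_le).mpr ?_) fun w hw => ?_
          · rw [Subgroup.mem_centralizer_iff]
            rintro _ rfl
            exact (commutatorElement_eq_one_iff_mul_comm.mp (show ⁅x, (g : P)⁆ = 1 from g.2)).symm
          · rw [Subgroup.mem_centralizer_iff]
            rintro _ rfl
            exact Subgroup.mem_center_iff.mp (hX hw) _
        exact Subgroup.mem_centralizer_iff.mp (this ((sup_comm X _).le hy)) _ rfl)
        ⟨z ^ C.index, hzC⟩ (a - 1) (hXY.le (Subgroup.pow_mem _ hzX _)) hzCd (by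
          rw [Subgroup.orderOf_mk, hCi, orderOf_pow' z (Fact.out : p.Prime).ne_zero, hz,
            Nat.gcd_eq_right (dvd_pow_self p ha.ne'), Nat.div_eq_iff_eq_mul_left (Fact.out : p.Prime).pos (dvd_pow_self p ha.ne'),
            ← pow_succ, show a - 1 + 1 = a by omega])
      have hrel : (Y.subgroupOf C).index * p = Y.index := by
        have := Subgroup.relIndex_mul_index hYC
        rw [hCi] at this
        exact this
      rw [hYi, ← hrel, show 2 * a = 1 + 2 * (a - 1) + 1 by omega, pow_add, pow_add, pow_one]
      obtain ⟨d, hd⟩ := hres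
      exact ⟨d, by rw [hd]; ring⟩

end Cfsg.Agent.Stem
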